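import Cfsg.Agent.FGS4.ThreeSizes.SylowShape

/-! # Some `s`-element, `s ∣ m`, has class size `m` -/

set_option linter.style.haveILetI false

namespace Cfsg.Agent.FGS4.ThreeSizes

open Subgroup

variable {G : Type*} [Group G] [Finite G]

/-- If a subgroup has index prime to `q` in a normal one, the `q`-elements agree. -/
theorem el_mem_of_fact_eq {q : ℕ} [hq : Fact q.Prime] {L H : Subgroup G} [hL : L.Normal] (hle : L ≤ H)
    (hfact : (Nat.card L).factorization q = (Nat.card H).factorization q) {v : G} (hv : IsEl q v)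
    (hvH : v ∈ H) : v ∈ L := by
  obtain ⟨k, hk⟩ := hv
  set π := QuotientGroup.mk' L
  have h1 : orderOf (π v) ∣ q ^ k := hk ▸ orderOf_map_dvd _ v
  obtain ⟨j, -, hj⟩ := (Nat.dvd_prime_pow hq.out).1 h1
  rcases Nat.eq_zero_or_pos j with h0 | h0
  · rw [h0, pow_zero, orderOf_eq_one_iff] at hj
    exact (QuotientGroup.eq_one_iff v).1 hj
  exfalso
  have h3 : orderOf (π v) ∣ Nat.card (H.map π) := by
    rw [← Nat.card_zpowers]; exact card_dvd_of_le (zpowers_le.2 (mem_map_of_mem π hvH))
  have hker : (π.subgroupMap H).ker = L.subgroupOf H := by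
    ext x
    rw [mem_subgroupOf, MonoidHom.mem_ker, ← QuotientGroup.eq_one_iff (N := L), Subtype.ext_iff]; rfl
  have h5 : Nat.card L * Nat.card (H.map π) = Nat.card H := by
    rw [← (π.subgroupMap H).ker.card_mul_index, Subgroup.index_ker,
      MonoidHom.range_eq_top.2 (π.subgroupMap_surjective H), card_top, hker,
      Nat.card_congr (subgroupOfEquivOfLe hle).toEquiv]
  have h6 : q ∣ Nat.card (H.map π) := ((dvd_pow_self q h0.ne').trans (dvd_of_eq hj.symm)).trans h3
  have h7 := hq.out.factorization_pos_of_dvd Nat.card_pos.ne' h6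
  rw [← h5, Nat.factorization_mul Nat.card_pos.ne' Nat.card_pos.ne', Finsupp.add_apply] at hfact
  omega

omit [Finite G] in
theorem le_cz_conj_of_normal {L : Subgroup G} [hL : L.Normal] {x : G} (h : L ≤ cz x) (g : G) :
    L ≤ cz (g * x * g⁻¹) := by
  intro l hl
  rw [cz_conj, mem_map_equiv]
  exact h (by simpa [MulAut.conj_symm_apply] using hL.conj_mem l hl g⁻¹)

/-- An element commuting with enough normal subgroups is central. -/
theorem central_of_le {m n : ℕ} (hh : Hyp G m n) {q : ℕ} [hq : Fact q.Prime] (hqm : q ∣ m)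
    {L L' : Subgroup G} [L.Normal] [L'.Normal] {f e : G} (hf : IsEl q f) (hfL : f ∈ L') (hf' : f ∉ L)
    (hfact : ∀ z : G, z ∉ center G → (Nat.card (cz z)).factorization q ≤ (Nat.card L).factorization q)
    (hL : L ≤ cz e) (hL' : L' ≤ cz e) : e ∈ center G := by
  by_contra he
  have h1 : (Nat.card L).factorization q = (Nat.card (L ⊔ L' : Subgroup G)).factorization q := by
    refine le_antisymm (fact_le_of_le le_sup_left q) ?_
    exact (fact_le_of_le (sup_le hL hL') q).trans (hfact e he)
  exact hf' (el_mem_of_fact_eq le_sup_left h1 hf (mem_sup_right hfL))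

variable {m n : ℕ} (hh : Hyp G m n)
include hh

theorem Hyp.eq_mn {x y : G} (hxy : (cz x).index = (cz y).index) (hle : cz x ≤ cz y) : cz x = cz y := by
  refine eq_of_le_of_card_ge hle (le_of_eq ?_)
  apply Nat.eq_of_mul_eq_mul_right (Nat.pos_of_ne_zero (index_ne_zero_of_finite (H := cz y)))
  calc Nat.card (cz y) * (cz y).index = Nat.card G := (cz y).card_mul_index
    _ = Nat.card (cz x) * (cz y).index := by rw [← hxy]; exact ((cz x).card_mul_index).symm

theorem Hyp.exists_size_m : ∃ s : ℕ, s.Prime ∧ s ∣ m ∧ ∃ v : G, IsEl s v ∧ (cz v).index = m := by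
  classical
  by_contra hbad
  push Not at hbad
  have hmn : ∀ s, s.Prime → s ∣ m → ∀ w, IsEl s w → w ∉ center G → (cz w).index = m * n :=
    fun s hs hsm w hw hwZ => (hh.cases hwZ).resolve_left (hbad s hs hsm w hw)
  obtain ⟨x₀, hx₀⟩ := hh.exm
  obtain ⟨r, k, i, hr, hxr, hord, -⟩ := FGS3.TwoClassSizes.exists_noncentral_part (hh.noncentral_of_m hx₀)
  haveI := Fact.mk hr
  have hxm : (cz (x₀ ^ k)).index = m := by rw [← hh.eq_of_le hxr (cz_pow_le x₀ k) hx₀]; exact hx₀
  have hrm : ¬ r ∣ m := fun h => hbad r hr h _ ⟨i, hord⟩ hxm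
  -- every noncentral element with centralizer of size `m * n` as above sees an element of size `m`
  have hX : ∀ s, s.Prime → s ∣ m → ∀ w, IsEl s w → w ∉ center G →
      ∃ x ∈ cz w, IsEl r x ∧ (cz x).index = m ∧ cz w ≤ cz x := by
    intro s hs hsm w hw hwZ
    haveI := Fact.mk hs
    obtain ⟨u₀, hu₀, hu₀s, hu₀Z⟩ := hh.exists_el hsm (hh.noncentral_of_m hxm)
    have hcard : (Nat.card (cz w)).factorization r = (Nat.card (cz u₀)).factorization r := by
      have h1 := fact_card_mul (cz w) r
      have h2 := fact_card_mul (cz u₀) r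
      rw [hmn s hs hsm w hw hwZ] at h1
      rw [hmn s hs hsm u₀ hu₀s hu₀Z] at h2
      omega
    obtain ⟨y, hy, hyr, hyZ⟩ := exists_noncentral_of_lt (H := cz w)
      (by rw [hcard]; exact center_fact_lt (center_le_cz u₀) ⟨i, hord⟩ (mem_cz_symm hu₀) hxr)
    have hsr : s ≠ r := fun h => hrm (h ▸ hsm)
    have hys : (orderOf y).Coprime s :=
      hyr.coprime fun hd => hsr ((Nat.prime_dvd_prime_iff_eq hr hs).1 hd).symm
    have hle : cz w ≤ cz y := hh.central_in_cz hw (hmn s hs hsm w hw hwZ) hy hys
    rcases hh.cases hyZ with e | e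
    · exact ⟨y, hy, hyr, e, hle⟩
    -- `y` has the same centralizer as `w`; use the centre of a Sylow subgroup through `y`
    have heq := hh.eq_mn (by rw [hmn s hs hsm w hw hwZ, e]) hle
    obtain ⟨l, hl⟩ := hyr
    obtain ⟨R, hR⟩ := (pgroup_zpowers hl).exists_le_sylow
    obtain ⟨S₀⟩ : Nonempty (Sylow r (cz (x₀ ^ k))) := inferInstance
    set R₀ := (S₀ : Subgroup (cz (x₀ ^ k))).map (cz (x₀ ^ k)).subtype
    have hR₀card : Nat.card R₀ = r ^ (Nat.card G).factorization r := by
      rw [card_map_of_injective (cz (x₀ ^ k)).subtype_injective, sylow_card_eq S₀, hh.fact_full hrm hxm]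
    obtain ⟨g, hg⟩ := MulAction.exists_smul_eq G (Sylow.ofCard R₀ hR₀card) R
    set z := g * x₀ ^ k * g⁻¹ with hz
    have hRz : (R : Subgroup G) ≤ cz z := by
      intro a ha
      rw [← hg, Sylow.coe_subgroup_smul, Sylow.coe_ofCard, pointwise_smul_def] at ha
      rw [hz, cz_conj]
      obtain ⟨b, hb, rfl⟩ := ha
      exact ⟨b, map_subtype_le _ hb, rfl⟩
    have hzw : z ∈ cz w := by rw [heq]; exact mem_cz_symm (hRz (hR (mem_zpowers y)))
    have hzr : IsEl r z := IsEl.conj ⟨i, hord⟩ g
    have hzidx : (cz z).index = m := by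
      rw [hz, cz_conj]
      exact (index_map_equiv (cz (x₀ ^ k)) (MulAut.conj g)).trans hxm
    exact ⟨z, hzw, hzr, hzidx, hh.central_in_cz hw (hmn s hs hsm w hw hwZ) hzw
      (hzr.coprime fun hd => hsr ((Nat.prime_dvd_prime_iff_eq hr hs).1 hd).symm)⟩
  -- `m` is squarefree
  have hsqf : ∀ s, s.Prime → s ∣ m → m.factorization s = 1 := by
    intro s hs hsm
    haveI := Fact.mk hs
    obtain ⟨Q⟩ : Nonempty (Sylow s G) := inferInstance
    set π := QuotientGroup.mk' (center G) with hπ
    have hπ1 : ∀ x, π x = 1 ↔ x ∈ center G := fun x => QuotientGroup.eq_one_iff x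
    set Qb := (Q : Subgroup G).map π
    have hQbp : IsPGroup s Qb := Q.isPGroup'.map π
    obtain ⟨t, -, hts, htZ⟩ := hh.exists_el hsm (hh.noncentral_of_m hxm)
    obtain ⟨t', ht', ht'Z⟩ : ∃ t' ∈ (Q : Subgroup G), t' ∉ center G := by
      by_contra hne
      push Not at hne
      exact htZ (hh.sylow_center hsm Q fun w hw =>
        (Subgroup.mem_center_iff.1 (hne w hw) t).symm)
    haveI : Nontrivial Qb :=
      ⟨⟨⟨π t', t', ht', rfl⟩, 1, fun e => ht'Z ((hπ1 t').1 (congrArg Subtype.val e))⟩⟩
    haveI := hQbp.center_nontrivial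
    obtain ⟨c, hc⟩ : ∃ c : center Qb, orderOf c = s := by
      obtain ⟨j, hj⟩ := IsPGroup.iff_card.mp (hQbp.to_subgroup (center Qb))
      refine exists_prime_orderOf_dvd_card' s ?_
      rw [hj]
      refine dvd_pow_self s fun h0 => ?_
      rw [h0, pow_zero] at hj
      exact (Finite.one_lt_card (α := center Qb)).ne' hj
    obtain ⟨e, heQ, hec⟩ := (c : Qb).2
    have heZ : e ∉ center G := fun h => by
      have : c = 1 := Subtype.ext (Subtype.ext (hec.symm.trans ((hπ1 e).2 h)))
      rw [this, orderOf_one] at hc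
      exact hs.ne_one hc.symm
    have hes : IsEl s e := isEl_of_mem_pgroup Q.isPGroup' heQ
    have heQc : ∀ g ∈ (Q : Subgroup G), g * e * g⁻¹ * e⁻¹ ∈ center G := fun g hg => by
      rw [← hπ1, map_mul, map_mul, map_mul, map_inv, map_inv, mul_inv_eq_one, mul_inv_eq_iff_eq_mul, hec]
      exact congrArg Subtype.val (Subgroup.mem_center_iff.1 c.2 ⟨π g, g, hg, rfl⟩)
    have hepow : e ^ s ∈ center G := by
      rw [← hπ1, map_pow, hec, ← SubmonoidClass.coe_pow, ← SubmonoidClass.coe_pow, ← hc, pow_orderOf_eq_one]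
      rfl
    have hQN : (Q : Subgroup G) ≤ normalizer (cz e : Set G) := fun g hg => mem_normalizer_cz (heQc g hg)
    have hQpow : ∀ g ∈ (Q : Subgroup G), g ^ s ∈ cz e := by
      intro g hg
      rw [mem_cz, ← commute_iff_comm_eq_one, comm_pow_left (heQc g hg), ← comm_pow_right (heQc g hg),
        Subgroup.mem_center_iff.1 hepow g, mul_inv_cancel_right, mul_inv_cancel]
    obtain ⟨y, hy, hyr, hym, -⟩ := hX s hs hsm e hes heZ
    have hsr : r ≠ s := fun h => hrm (h ▸ hsm)
    have hpos : 1 ≤ m.factorization s := hs.factorization_pos_of_dvd hh.mpos hsm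
    have hcardI := card_inf_sylow Q (cz e) hQN
    have hfm := hh.fact_m hs hsm heZ
    obtain ⟨g, hg, hgn⟩ : ∃ g ∈ (Q : Subgroup G), g ∉ cz e := by
      by_contra hne
      push Not at hne
      rw [inf_eq_left.2 hne, sylow_card_eq Q] at hcardI
      have := Nat.pow_right_injective hs.two_le hcardI
      omega
    -- `Q` lies in `s` cosets of `Q ∩ cz e`
    let ψ : Fin s × ((Q : Subgroup G) ⊓ cz e : Subgroup G) → (Q : Subgroup G) := fun p =>
      ⟨(g ^ (p.1 : ℕ))⁻¹ * p.2, Subgroup.mul_mem _ (Subgroup.inv_mem _ (pow_mem hg _)) p.2.2.1⟩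
    have hψ : Function.Surjective ψ := by
      rintro ⟨h, hh'⟩
      obtain ⟨j, hj⟩ := hh.no_two (r := r) hsr hsm (u := e) hes heZ hy hyr (hh.noncentral_of_m hym)
        (T := (Q : Subgroup G)) Q.isPGroup' hQN hQpow
        (fun a ha b hb => mem_cz.2 (comm_commutator (heQc a ha) (heQc b hb))) (g := g) (h := h) hg hh' hgn
      have hj' : g ^ (j % s) * h ∈ cz e := by
        have e1 : g ^ j = (g ^ s) ^ (j / s) * g ^ (j % s) := by rw [← pow_mul, ← pow_add, Nat.div_add_mod]
        rw [e1, mul_assoc] at hj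
        exact ((cz e).mul_mem_cancel_left (pow_mem (hQpow g hg) _)).1 hj
      exact ⟨⟨⟨j % s, Nat.mod_lt _ hs.pos⟩, ⟨_, mul_mem (pow_mem hg _) hh', hj'⟩⟩,
        Subtype.ext (inv_mul_cancel_left _ _)⟩
    have hle := Nat.card_le_card_of_surjective ψ hψ
    rw [Nat.card_prod, Nat.card_fin, hcardI, sylow_card_eq Q, ← pow_succ'] at hle
    have := (Nat.pow_le_pow_iff_right hs.one_lt).1 hle
    omega
  obtain ⟨q, hqp, hqm⟩ := Nat.exists_prime_and_dvd hh.hm.ne'
  haveI := Fact.mk hqp
  -- `q`-elements fixing `x` fix all its conjugates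
  have hK : ∀ x : G, (cz x).index = m → ∀ v ∈ cz x, IsEl q v → v ∈ (cz x).normalCore := by
    intro x hx v hv hvq
    by_cases hsingle : ∀ s, s.Prime → s ∣ m → s = q
    · -- degree `q`
      have hmq : m = q := by
        have h1 : m = q ^ m.factorization q := by
          apply Nat.eq_of_factorization_eq hh.mpos (pow_ne_zero _ hqp.ne_zero)
          intro s
          rw [hqp.factorization_pow]
          by_cases hs : s = q
          · subst hs; rw [Finsupp.single_eq_same]
          · rw [Finsupp.single_eq_of_ne hs]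
            by_contra h0
            have hs' := Nat.prime_of_mem_primeFactors (Nat.support_factorization m ▸ Finsupp.mem_support_iff.2 h0)
            exact hs (hsingle s hs' ((Nat.dvd_of_factorization_pos h0)))
        rw [hsqf q hqp hqm, pow_one] at h1
        exact h1
      set H := cz x
      haveI := Fintype.ofFinite (G ⧸ H)
      rw [Subgroup.normalCore_eq_ker, MonoidHom.mem_ker]
      set τ := MulAction.toPermHom G (G ⧸ H) v
      obtain ⟨l, hl⟩ := hvq
      have h1 : orderOf τ ∣ q ^ l := hl ▸ orderOf_map_dvd _ v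
      obtain ⟨j, -, hj⟩ := (Nat.dvd_prime_pow hqp).1 h1
      have hfixed : τ ((1 : G) : G ⧸ H) = ((1 : G) : G ⧸ H) := by
        show ((v * 1 : G) : G ⧸ H) = ((1 : G) : G ⧸ H)
        rw [QuotientGroup.eq]
        simpa using inv_mem hv
      haveI := Fintype.ofFinite (MulAction.fixedPoints (zpowers τ) (G ⧸ H))
      have hp : IsPGroup q (zpowers τ) := IsPGroup.of_card (n := j) (by rw [Nat.card_zpowers, hj])
      have hmod := hp.card_modEq_card_fixedPoints (G ⧸ H)
      have hcardq : Nat.card (G ⧸ H) = q := by rw [← index_eq_card, hx, hmq]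
      have hmem : ((1 : G) : G ⧸ H) ∈ MulAction.fixedPoints (zpowers τ) (G ⧸ H) := by
        rintro ⟨a, ha⟩
        obtain ⟨i, rfl⟩ := mem_zpowers_iff.1 ha
        exact Equiv.Perm.zpow_apply_eq_self_of_apply_eq_self hfixed i
      have hpos : 0 < Nat.card (MulAction.fixedPoints (zpowers τ) (G ⧸ H)) :=
        Nat.card_pos_iff.2 ⟨⟨⟨_, hmem⟩⟩, inferInstance⟩
      rw [hcardq] at hmod
      have hdq : q ∣ Nat.card (MulAction.fixedPoints (zpowers τ) (G ⧸ H)) :=
        Nat.modEq_zero_iff_dvd.1 (hmod.symm.trans (Nat.modEq_zero_iff_dvd.2 dvd_rfl))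
      have huniv : MulAction.fixedPoints (zpowers τ) (G ⧸ H) = Set.univ := by
        apply Set.eq_of_subset_of_ncard_le (Set.subset_univ _)
        rw [Set.ncard_univ, hcardq, ← Nat.card_coe_set_eq]
        exact Nat.le_of_dvd hpos hdq
      refine Equiv.ext fun z => ?_
      exact (huniv.symm ▸ Set.mem_univ z : z ∈ MulAction.fixedPoints (zpowers τ) (G ⧸ H)) ⟨τ, mem_zpowers τ⟩
    · -- several primes: the centralizer of a `q`-element is abelian
      push Not at hsingle
      obtain ⟨s, hsp, hsm, hsq⟩ := hsingle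
      haveI := Fact.mk hsp
      obtain ⟨u, hux, huq, huZ⟩ := hh.exists_el hqm (hh.noncentral_of_m hx)
      set C := cz u with hC
      have hCidx := hmn q hqp hqm u huq huZ
      obtain ⟨y, hy, hys, hyZ⟩ := hh.exists_el hsm huZ
      have hyC : cz y = C := (hh.eq_mn (by rw [hCidx, hmn s hsp hsm y hys hyZ])
        (hh.central_in_cz huq hCidx hy (hys.coprime fun hd =>
          hsq ((Nat.prime_dvd_prime_iff_eq hsp hqp).1 hd)))).symm
      have hab : ∀ c ∈ C, C ≤ cz c := by
        intro c hc
        obtain ⟨a, b, hab, -, hae, hb, haz, hbz⟩ := exists_parts (r := q) c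
        have haC : a ∈ C := (zpowers_le.2 hc) haz
        have hbC : b ∈ C := (zpowers_le.2 hc) hbz
        have h1 : C ≤ cz b := hh.central_in_cz huq hCidx hbC hb
        have h2 : C ≤ cz a := by
          rw [← hyC]
          refine hh.central_in_cz hys (hmn s hsp hsm y hys hyZ) (hyC.symm ▸ haC) ?_
          exact IsEl.coprime hae fun hd => hsq ((Nat.prime_dvd_prime_iff_eq hqp hsp).1 hd).symm
        rw [hab]
        exact fun d hd => inf_le_cz_mul a b ⟨h2 hd, h1 hd⟩
      haveI : Group.IsNilpotent C := hh.nilpotent hqm huq huZ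
      -- `x` lies in `C`, after replacing it by its `q'`-part
      have hNidx : ∀ t, t.Prime → t ∣ m → ¬ t ∣ (normalizer (C : Set G)).index := by
        intro t ht htm
        haveI := Fact.mk ht
        obtain ⟨w, hw, hwt, hwZ⟩ := hh.exists_el htm huZ
        obtain ⟨T, hT⟩ := (part_pgroup t C).exists_le_sylow
        have hidx : ((part t C).subgroupOf (T : Subgroup G)).index = t := by
          have h1 := ((part t C).subgroupOf (T : Subgroup G)).card_mul_index
          rw [Nat.card_congr (subgroupOfEquivOfLe hT).toEquiv, card_part, sylow_card_eq T] at h1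
          have h2 := hh.fact_m ht htm huZ
          rw [hsqf t ht htm] at h2
          rw [← h2, pow_succ] at h1
          exact Nat.eq_of_mul_eq_mul_left (pow_pos ht.pos _) h1
        haveI : ((part t C).subgroupOf (T : Subgroup G)).Normal := by
          obtain ⟨j, hj⟩ := IsPGroup.iff_card.mp T.isPGroup'
          refine Subgroup.normal_of_index_eq_minFac_card ?_
          rw [hidx, hj]
          have hj0 : j ≠ 0 := fun h0 => by
            rw [h0, pow_zero] at hj
            have hd := index_dvd_card ((part t C).subgroupOf (T : Subgroup G))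
            rw [hidx, hj, Nat.dvd_one] at hd
            exact ht.ne_one hd
          rw [Nat.pow_minFac hj0, ht.minFac_eq]
        intro hd
        apply T.not_dvd_index
        refine hd.trans (index_dvd_of_le fun g hg => ?_)
        have hwp : w ∈ part t C := mem_part hwt hw
        have hg' : g * w * g⁻¹ ∈ part t C :=
          mem_subgroupOf.1 ((inferInstance : ((part t C).subgroupOf (T : Subgroup G)).Normal).conj_mem
            ⟨w, hT hwp⟩ (mem_subgroupOf.2 hwp) ⟨g, hg⟩)
        have hwC : cz w = C := (hh.eq_mn (by rw [hCidx, hmn t ht htm w hwt hwZ]) (hab w hw)).symm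
        have hgC : cz (g * w * g⁻¹) = C := (hh.eq_mn (by
          rw [hCidx, hmn t ht htm _ (hwt.conj g) (fun h => hwZ (conj_mem_center_iff.1 h))])
          (hab _ (part_le t C hg'))).symm
        rw [mem_normalizer_iff_map_conj_eq]
        show C.map (MulAut.conj g).toMonoidHom = C
        conv_lhs => rw [← hwC]
        rw [← cz_conj, hgC]
      -- `x` centralizes `C`
      have hxC : C ≤ cz x := hab x (mem_cz_symm hux)
      set N := normalizer (C : Set G)
      have hcover : ∀ g : G, ∃ h ∈ N, h⁻¹ * g ∈ cz x := by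
        have hsur : Function.Surjective (fun h : N ⧸ (cz x).subgroupOf N =>
            Quotient.lift (fun a : N => ((a : G) : G ⧸ cz x))
              (fun a b hh' => QuotientGroup.eq.2 (QuotientGroup.leftRel_apply.1 hh' :)) h) := by
          have hinj : Function.Injective (fun h : N ⧸ (cz x).subgroupOf N =>
            Quotient.lift (fun a : N => ((a : G) : G ⧸ cz x))
              (fun a b hh' => QuotientGroup.eq.2 (QuotientGroup.leftRel_apply.1 hh' :)) h) := by
            intro a b
            induction a using QuotientGroup.induction_on with | _ a => ?_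
            induction b using QuotientGroup.induction_on with | _ b => ?_
            intro h
            exact QuotientGroup.eq.2 (QuotientGroup.eq.1 (show ((a : G) : G ⧸ cz x) = ((b : G) : G ⧸ cz x) from h) :)
          haveI := Fintype.ofFinite (G ⧸ cz x)
          haveI := Fintype.ofFinite (N ⧸ (cz x).subgroupOf N)
          refine ((Fintype.bijective_iff_injective_and_card _).2 ⟨hinj, ?_⟩).2
          rw [← Nat.card_eq_fintype_card, ← Nat.card_eq_fintype_card, ← index_eq_card, ← index_eq_card, hx]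
          change (cz x).relIndex N = m
          have hcop : m.Coprime N.index := Nat.coprime_of_dvd fun t ht htm => hNidx t ht htm
          have h1 : (cz x ⊓ N).index = (cz x).relIndex N * N.index := by
            rw [← relIndex_mul_index (inf_le_right : cz x ⊓ N ≤ N), inf_relIndex_right]
          have h2 : m ∣ (cz x).relIndex N * N.index := h1 ▸ hx ▸ index_dvd_of_le inf_le_left
          have h3 := Nat.le_of_dvd (Nat.pos_of_ne_zero index_ne_zero_of_finite) (hcop.dvd_of_dvd_mul_right h2)
          have h4 : (cz x).relIndex N ≤ m := by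
            have h5 := index_inf_le (H := cz x) (K := N)
            rw [h1, hx] at h5
            exact Nat.le_of_mul_le_mul_right h5 (Nat.pos_of_ne_zero index_ne_zero_of_finite)
          exact le_antisymm h4 h3
        intro g
        obtain ⟨h, hh'⟩ := hsur (g : G ⧸ cz x)
        induction h using QuotientGroup.induction_on with | _ h => ?_
        exact ⟨h, h.2, QuotientGroup.eq.1 (show ((h : G) : G ⧸ cz x) = (g : G ⧸ cz x) from hh')⟩
      have hcore : C ≤ (cz x).normalCore := by
        intro c hc g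
        obtain ⟨h, hhN, hk⟩ := hcover g⁻¹
        have h1 : h⁻¹ * c * h ∈ C := by
          rw [mem_normalizer_iff.1 hhN]; simpa [mul_assoc] using hc
        set k := h⁻¹ * g⁻¹ with hkdef
        have h2 := mul_mem (mul_mem (inv_mem hk) (hxC h1)) hk
        have e : k⁻¹ * (h⁻¹ * c * h) * k = g * c * g⁻¹ := by rw [hkdef]; group
        rwa [e] at h2
      refine el_mem_of_fact_eq (normalCore_le _) ?_ hvq hv
      refine le_antisymm (fact_le_of_le (normalCore_le _) q) ?_
      rw [hh.fact_eq hqp hqm (hh.noncentral_of_m hx) huZ]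
      exact fact_le_of_le hcore q
  -- the contradiction
  obtain ⟨u, -, huq, huZ⟩ := hh.exists_el hqm (hh.noncentral_of_m hxm)
  obtain ⟨x, hxu, hxr', hxi, hle⟩ := hX q hqp hqm u huq huZ
  set L := (cz x).normalCore
  have hLfact : ∀ z, z ∉ center G → (Nat.card (cz z)).factorization q ≤ (Nat.card L).factorization q := by
    intro z hz
    rw [hh.fact_eq hqp hqm hz huZ]
    obtain ⟨S⟩ : Nonempty (Sylow q (cz u)) := inferInstance
    have h1 : ((S : Subgroup (cz u)).map (cz u).subtype) ≤ L := fun a ha =>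
      hK x hxi a (hle (map_subtype_le _ ha)) (isEl_of_mem_pgroup (S.isPGroup'.map _) ha)
    have h2 := le_fact_of_pgroup (S.isPGroup'.map (cz u).subtype) h1
    rw [card_map_of_injective (cz u).subtype_injective, sylow_card_eq S] at h2
    exact (Nat.pow_le_pow_iff_right hqp.one_lt).1 h2
  obtain ⟨f, hfq, hfL⟩ : ∃ f, IsEl q f ∧ f ∉ L := by
    by_contra hne
    push Not at hne
    obtain ⟨Q⟩ : Nonempty (Sylow q G) := inferInstance
    have h1 := le_fact_of_pgroup Q.isPGroup' (H := L) fun a ha => hne a (isEl_of_mem_pgroup Q.isPGroup' ha)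
    rw [sylow_card_eq Q] at h1
    have h2 := (Nat.pow_le_pow_iff_right hqp.one_lt).1 h1
    have h3 : (Nat.card L).factorization q ≤ (Nat.card (cz x)).factorization q :=
      fact_le_of_le (normalCore_le (cz x)) q
    have h4 := hh.fact_m hqp hqm (hh.noncentral_of_m hxi)
    have := hsqf q hqp hqm
    omega
  have hfZ : f ∉ center G := fun h => hfL (fun g => center_le_cz x (Subgroup.Normal.conj_mem inferInstance f h g))
  obtain ⟨w, hwf, hwr, hwi, hle'⟩ := hX q hqp hqm f hfq hfZ
  set L' := (cz w).normalCore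
  have hfL' : f ∈ L' := hK w hwi f (hle' (self_mem_cz f)) hfq
  have hxw : x * w ∉ center G := by
    intro hc
    apply hfL
    refine hK x hxi f ?_ hfq
    have h1 := inf_le_cz_mul (x * w) w⁻¹
    have h2 : f ∈ cz (x * w) ⊓ cz w⁻¹ :=
      ⟨mem_cz.2 (Subgroup.mem_center_iff.1 hc f), mem_cz.2 (show Commute f w⁻¹ from (show Commute f w from mem_cz.1 (hle' (self_mem_cz f))).inv_right)⟩
    have h3 := h1 h2
    rwa [mul_inv_cancel_right] at h3
  obtain ⟨v, hv, hvq, hvZ⟩ := hh.exists_el hqm hxw
  set e := x⁻¹ * (v * x * v⁻¹) with he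
  have he' : e = w * (v * w * v⁻¹)⁻¹ := by
    have h1 : v * x * v⁻¹ * (v * w * v⁻¹) = x * w := by
      rw [conj_mul, mem_cz.1 hv, mul_inv_cancel_right]
    rw [he, eq_mul_inv_iff_mul_eq, mul_assoc, h1, inv_mul_cancel_left]
  have hinv : ∀ {a : G}, cz a ≤ cz a⁻¹ := fun {a} d hd =>
    mem_cz.2 ((show Commute d a from mem_cz.1 hd).inv_right)
  have hec : e ∈ center G := by
    refine central_of_le hh hqm (L := L) (L' := L') hfq hfL' hfL hLfact ?_ ?_
    · rw [he]
      exact fun l hl => inf_le_cz_mul _ _ ⟨hinv (normalCore_le _ hl), le_cz_conj_of_normal (normalCore_le _) v hl⟩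
    · rw [he']
      exact fun l hl => inf_le_cz_mul _ _ ⟨normalCore_le _ hl, hinv (le_cz_conj_of_normal (normalCore_le _) v hl)⟩
  have hqr : q ≠ r := fun h => hrm (h ▸ hqm)
  have hvx : Commute v x := by
    refine commute_of_central ?_ (hvq.coprime' hxr' hqr)
    have : v * x * v⁻¹ * x⁻¹ = x * e * x⁻¹ := by rw [he]; group
    rw [this]
    exact conj_mem_center_iff.2 hec
  have hvw : Commute v w := by
    refine commute_of_central ?_ (hvq.coprime' hwr hqr)
    have : v * w * v⁻¹ * w⁻¹ = e⁻¹ := by rw [he']; group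
    rw [this]
    exact inv_mem hec
  have hcv : ∀ {y}, IsEl r y → Commute v y → cz v ≤ cz y := fun {y} hy hc =>
    hh.central_in_cz hvq (hmn q hqp hqm v hvq hvZ) (mem_cz.2 hc.eq.symm)
      (hy.coprime fun hd => hqr ((Nat.prime_dvd_prime_iff_eq Fact.out hqp).1 hd).symm)
  -- the Sylow subgroup of `cz v` lies in `L ⊓ L'`
  obtain ⟨S⟩ : Nonempty (Sylow q (cz v)) := inferInstance
  have hS : ((S : Subgroup (cz v)).map (cz v).subtype) ≤ L ⊓ L' := fun a ha =>
    ⟨hK x hxi a (hcv hxr' hvx (map_subtype_le _ ha)) (isEl_of_mem_pgroup (S.isPGroup'.map _) ha),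
      hK w hwi a (hcv hwr hvw (map_subtype_le _ ha)) (isEl_of_mem_pgroup (S.isPGroup'.map _) ha)⟩
  have h1 := le_fact_of_pgroup (S.isPGroup'.map (cz v).subtype) hS
  rw [card_map_of_injective (cz v).subtype_injective, sylow_card_eq S] at h1
  have h2 := (Nat.pow_le_pow_iff_right hqp.one_lt).1 h1
  rw [hh.fact_eq hqp hqm hvZ (hh.noncentral_of_m hwi)] at h2
  have h3 : (Nat.card L').factorization q ≤ (Nat.card (cz w)).factorization q :=
    fact_le_of_le (normalCore_le (cz w)) q
  have h4 := fact_le_of_le (inf_le_right : L ⊓ L' ≤ L') q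
  haveI : (L ⊓ L').Normal := inferInstance
  exact hfL ((inf_le_left : L ⊓ L' ≤ L) (el_mem_of_fact_eq (inf_le_right : L ⊓ L' ≤ L') (by omega) hfq hfL'))

end Cfsg.Agent.FGS4.ThreeSizes
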