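import Cfsg.Agent.FGS4.ThreeSizes.Bad

/-! # A nilpotent centralizer of index `m` -/

set_option linter.style.haveILetI false

namespace Cfsg.Agent.FGS4.ThreeSizes

open Subgroup

variable {G : Type*} [Group G] [Finite G]

/-- In a nilpotent subgroup, commuting with the `r`-elements is enough for an `r`-element. -/
theorem le_cz_of_el {r : ℕ} [hr : Fact r.Prime] {C : Subgroup G} [Group.IsNilpotent C] {z : G}
    (hz : IsEl r z) (hzC : z ∈ C) (h : ∀ a ∈ C, IsEl r a → a * z = z * a) : C ≤ cz z := by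
  intro c hc
  obtain ⟨a, b, hab, -, hae, hb, haz, hbz⟩ := exists_parts (r := r) c
  have haC : a ∈ C := (zpowers_le.2 hc) haz
  have hbC : b ∈ C := (zpowers_le.2 hc) hbz
  obtain ⟨k, hk⟩ := hz
  have h1 : Commute z b := commute_in hzC hbC (by rw [hk]; exact hb.symm.pow_left k)
  rw [hab]
  exact mul_mem (mem_cz.2 (h a haC hae)) (mem_cz.2 h1.eq.symm)

/-- A subgroup is abelian when all its elements of prime power order are central in it. -/
theorem le_centralizer_of_parts (C : Subgroup G)
    (h : ∀ r, r.Prime → r ∣ Nat.card C → ∀ a ∈ C, IsEl r a → C ≤ cz a) :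
    C ≤ centralizer (C : Set G) := by
  set K := C ⊓ centralizer (C : Set G)
  have hd : Nat.card C ∣ Nat.card K := by
    rw [← Nat.factorization_le_iff_dvd Nat.card_pos.ne' Nat.card_pos.ne']
    intro r
    by_cases hr : r.Prime ∧ r ∣ Nat.card C
    · haveI := Fact.mk hr.1
      have h1 : part r C ≤ K := fun a ha => by
        refine ⟨part_le r C ha, mem_centralizer_iff.2 fun c hc => ?_⟩
        exact mem_cz.1 (h r hr.1 hr.2 a (part_le r C ha) (isEl_of_mem_pgroup (part_pgroup r C) ha) hc)
      have h2 := le_fact_of_pgroup (part_pgroup r C) h1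
      rw [card_part] at h2
      exact (Nat.pow_le_pow_iff_right hr.1.one_lt).1 h2
    · rcases not_and_or.1 hr with h0 | h0
      · rw [Nat.factorization_eq_zero_of_not_prime _ h0]; exact Nat.zero_le _
      · rw [Nat.factorization_eq_zero_of_not_dvd h0]; exact Nat.zero_le _
  have e : K = C := eq_of_le_of_card_ge inf_le_left (Nat.le_of_dvd Nat.card_pos hd)
  exact e.ge.trans inf_le_right

variable {m n : ℕ} (hh : Hyp G m n)
include hh

/-- A noncentral `r`-element of `cz v`, `r ∣ n`, with centralizer inside `cz v`. -/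
theorem Hyp.exists_cz_le {s : ℕ} [hs : Fact s.Prime] (hsm : s ∣ m) {v : G} (hv : IsEl s v)
    (hvi : (cz v).index = m) {r : ℕ} [hr : Fact r.Prime] (hrn : r ∣ n) :
    ∃ z ∈ cz v, IsEl r z ∧ z ∉ center G ∧ cz z ≤ cz v := by
  have hvZ := hh.noncentral_of_m hvi
  haveI := hh.nilpotent hsm hv hvZ
  have hrm : ¬ r ∣ m := hh.not_dvd_m hr.out hrn
  have hfull := hh.fact_full hrm hvi
  obtain ⟨z₀, hz₀, hz₀r, hz₀Z⟩ : ∃ z ∈ cz v, IsEl r z ∧ z ∉ center G := by
    refine exists_noncentral_of_lt ?_
    obtain ⟨w, hw⟩ := hh.exmn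
    have h3 := fact_le_of_le (center_le_cz w) r
    have h4 := fact_card_mul (cz w) r
    rw [hw, Nat.factorization_mul hh.mpos hh.npos, Finsupp.add_apply] at h4
    have h5 := hr.out.factorization_pos_of_dvd hh.npos hrn
    omega
  by_cases hA : ∃ z ∈ cz v, IsEl r z ∧ z ∉ center G ∧ ∀ a ∈ cz v, IsEl r a → a * z = z * a
  · obtain ⟨z, hz, hzr, hzZ, hza⟩ := hA
    exact ⟨z, hz, hzr, hzZ, le_of_eq (hh.eq_of_le hzZ (le_cz_of_el hzr hz hza) hvi).symm⟩
  refine ⟨z₀, hz₀, hz₀r, hz₀Z, ?_⟩
  obtain ⟨k, hk⟩ := hz₀r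
  rcases hh.cases hz₀Z with hi | hi
  · exfalso
    obtain ⟨S₀⟩ : Nonempty (Sylow r (cz z₀)) := inferInstance
    set R₀ := (S₀ : Subgroup (cz z₀)).map (cz z₀).subtype
    have hR₀card : Nat.card R₀ = r ^ (Nat.card G).factorization r := by
      rw [card_map_of_injective (cz z₀).subtype_injective, sylow_card_eq S₀, hh.fact_full hrm hi]
    have hRcard : Nat.card (part r (cz v)) = r ^ (Nat.card G).factorization r := by
      rw [card_part, hfull]
    obtain ⟨g, hg⟩ := MulAction.exists_smul_eq G (Sylow.ofCard R₀ hR₀card) (Sylow.ofCard _ hRcard)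
    set z := g * z₀ * g⁻¹ with hz
    have hzr : IsEl r z := IsEl.conj ⟨k, hk⟩ g
    have hRz : part r (cz v) ≤ cz z := by
      intro a ha
      have e := congrArg (fun S : Sylow r G => (S : Subgroup G)) hg
      simp only [Sylow.coe_subgroup_smul, Sylow.coe_ofCard] at e
      rw [← e, pointwise_smul_def] at ha
      rw [hz, cz_conj]
      obtain ⟨b, hb, rfl⟩ := ha
      exact ⟨b, map_subtype_le _ hb, rfl⟩
    obtain ⟨k', hk'⟩ := hzr
    have hT : IsPGroup r (zpowers z ⊔ part r (cz v) : Subgroup G) := by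
      refine (pgroup_zpowers hk').to_sup_of_normal_right' (part_pgroup r _) (zpowers_le.2 ?_)
      exact centralizer_le_normalizer _ (mem_centralizer_iff.2 fun a ha => mem_cz.1 (hRz ha))
    have e := eq_of_pgroup_card (H := (⊤ : Subgroup G)) hT le_sup_right le_top
      (by rw [hRcard, card_top])
    have hzR : z ∈ part r (cz v) := e ▸ mem_sup_left (mem_zpowers z)
    exact hA ⟨z, part_le r _ hzR, ⟨k', hk'⟩, fun h => hz₀Z (conj_mem_center_iff.1 h),
      fun a ha har => mem_cz.1 (hRz (mem_part har ha))⟩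
  · have hsr : (orderOf z₀).Coprime (orderOf v) :=
      IsEl.coprime' ⟨k, hk⟩ hv (fun h : r = s => hrm (h ▸ hsm))
    have hc : Commute z₀ v := mem_cz.1 hz₀
    have e := hh.eq_of_le_mn (x := z₀ * v) (y := z₀) (cz_mul_le_left hc hsr) hi
      (mul_notMem_center hc hsr hz₀Z)
    rw [cz_mul_eq hc hsr] at e
    exact inf_eq_left.1 e

/-- Centralizers of index `m` of `s`-elements, `s ∣ m`, are good. -/
theorem Hyp.good {s : ℕ} [hs : Fact s.Prime] (hsm : s ∣ m) {v : G} (hv : IsEl s v)
    (hvi : (cz v).index = m) : Good G m (cz v) := by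
  have hvZ := hh.noncentral_of_m hvi
  haveI := hh.nilpotent hsm hv hvZ
  obtain ⟨r, hr, hrn⟩ := Nat.exists_prime_and_dvd hh.hn.ne'
  haveI := Fact.mk hr
  obtain ⟨z, hz, hzr, hzZ, hzle⟩ := hh.exists_cz_le hsm hv hvi hrn
  refine ⟨hvi, inferInstance, ?_, fun t ht htm => ?_⟩
  · intro t x ht htm hxt hxC hxZ
    haveI := Fact.mk ht
    have htr : r ≠ t := fun h => hh.not_dvd_n ht htm (h ▸ hrn)
    have hcop : (orderOf x).Coprime (orderOf z) := IsEl.coprime' hxt hzr htr.symm
    have hc : Commute x z := commute_in hxC hz hcop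
    have hxz : x * z ∉ center G := mul_notMem_center hc hcop hxZ
    have hU : cz (x * z) ≤ cz v := by rw [cz_mul_eq hc hcop]; exact inf_le_right.trans hzle
    have hUx : cz (x * z) ≤ cz x := cz_mul_le_left hc hcop
    refine (hh.eq_of_le hxZ ?_ hvi).symm
    refine le_cz_of_el hxt hxC fun a ha hat => ?_
    obtain ⟨S⟩ : Nonempty (Sylow t (cz (x * z))) := inferInstance
    set T := (S : Subgroup (cz (x * z))).map (cz (x * z)).subtype
    have hTle : T ≤ part t (cz v) := fun w hw =>
      mem_part (isEl_of_mem_pgroup (S.isPGroup'.map _) hw) (hU (map_subtype_le _ hw))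
    have e : T = part t (cz v) := by
      refine eq_of_le_of_card_ge hTle (le_of_eq ?_)
      rw [card_part, card_map_of_injective (cz (x * z)).subtype_injective, sylow_card_eq S,
        hh.fact_eq ht htm hvZ hxz]
    exact mem_cz.1 (hUx (map_subtype_le _ (e.symm ▸ mem_part hat ha : a ∈ T)))
  · haveI := Fact.mk ht
    exact hh.exists_el htm hvZ

omit hh in
theorem Good.commute_all (hh : Hyp G m n) {C : Subgroup G} (hC : Good G m C)
    (hab : ∀ r, r.Prime → r ∣ n → (Nat.card G).factorization r = (Nat.card (center G)).factorization r + n.factorization r) :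
    C ≤ centralizer (C : Set G) := by
  haveI := hC.nil
  refine le_centralizer_of_parts C fun r hr hrC a haC har => ?_
  rcases hh.primes r hr (hrC.trans (card_subgroup_dvd_card C)) with hrm | hrn
  · exact fun c hc => mem_cz.2 (hC.commute hr hrm har haC hc).symm
  haveI := Fact.mk hr
  by_cases haZ : a ∈ center G
  · exact fun c _ => mem_cz.2 (Subgroup.mem_center_iff.1 haZ c)
  -- some element with centralizer `C`
  obtain ⟨s, hs, hsm⟩ := Nat.exists_prime_and_dvd hh.hm.ne'
  haveI := Fact.mk hs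
  obtain ⟨t, htC, hts, htZ⟩ := hC.ex s hs hsm
  have htc := hC.eq s t hs hsm hts htC htZ
  have hrm : ¬ r ∣ m := hh.not_dvd_m hr hrn
  have hidx : ∀ w : G, IsEl r a → w ∉ center G → a ∈ cz w → (cz w).index = m := by
    intro w hae hwZ haw
    refine (hh.cases hwZ).resolve_right fun e => ?_
    have h1 := center_fact_lt (center_le_cz w) hae haw haZ
    have h2 := fact_card_mul (cz w) r
    rw [e, Nat.factorization_mul hh.mpos hh.npos, Finsupp.add_apply,
      Nat.factorization_eq_zero_of_not_dvd hrm, hab r hr hrn] at h2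
    omega
  have hcop : (orderOf t).Coprime (orderOf a) := IsEl.coprime' hts har fun h => hrm (h ▸ hsm)
  have hc : Commute t a := commute_in htC haC hcop
  have hw : t * a ∉ center G := mul_notMem_center hc hcop htZ
  have haw : a ∈ cz (t * a) := by
    rw [cz_mul_eq hc hcop, htc]; exact ⟨haC, self_mem_cz a⟩
  have hwm := hidx _ har hw haw
  have h1 : cz (t * a) = C := by
    rw [← htc]; exact hh.eq_of_le htZ (cz_mul_le_left hc hcop) hwm
  rw [← h1, cz_mul_eq hc hcop]
  exact inf_le_right

end Cfsg.Agent.FGS4.ThreeSizes
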