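import Cfsg.Agent.FGS4.ThreeSizes.Structure

/-! # Class sizes `1`, `m`, `m * n`: assembling the conclusions -/

set_option linter.style.haveILetI false

namespace Cfsg.Agent.FGS4.ThreeSizes

open Subgroup

variable {G : Type*} [Group G] [Finite G]

/-- Without abelian direct factors only the primes of the class sizes divide the order. -/
theorem primes_of_no_factor
    (hnodf : ∀ A B : Subgroup G, A.Normal → B.Normal → A ⊓ B = ⊥ → A ⊔ B = ⊤ → IsMulCommutative A → A = ⊥)
    {r : ℕ} [hr : Fact r.Prime] (hidx : ∀ x : G, ¬ r ∣ (cz x).index) : ¬ r ∣ Nat.card G := by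
  intro hdvd
  obtain ⟨Q⟩ : Nonempty (Sylow r G) := inferInstance
  have hQc : centralizer ((Q : Subgroup G) : Set G) = ⊤ := by
    by_contra hne
    obtain ⟨g, hg⟩ := exists_notMem_conj _ hne
    obtain ⟨S⟩ : Nonempty (Sylow r (cz g)) := inferInstance
    have hScard : Nat.card ((S : Subgroup (cz g)).map (cz g).subtype) = r ^ (Nat.card G).factorization r := by
      rw [card_map_of_injective (cz g).subtype_injective, sylow_card_eq S, fact_card_mul (cz g) r,
        Nat.factorization_eq_zero_of_not_dvd (hidx g), add_zero]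
    obtain ⟨a, ha⟩ := MulAction.exists_smul_eq G Q (Sylow.ofCard _ hScard)
    apply hg a
    rw [mem_centralizer_iff]
    intro x hx
    have h1 : a * x * a⁻¹ ∈ ((S : Subgroup (cz g)).map (cz g).subtype) := by
      have e := congrArg (fun S : Sylow r G => (S : Subgroup G)) ha
      simp only [Sylow.coe_subgroup_smul, Sylow.coe_ofCard] at e
      rw [← e, pointwise_smul_def]
      exact ⟨x, hx, rfl⟩
    have h2 := mem_cz.1 (map_subtype_le _ h1)
    calc x * (a⁻¹ * g * a) = a⁻¹ * ((a * x * a⁻¹) * g) * a := by group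
      _ = a⁻¹ * (g * (a * x * a⁻¹)) * a := by rw [h2]
      _ = a⁻¹ * g * a * x := by group
  have hcen : (Q : Subgroup G) ≤ center G := fun x hx =>
    Subgroup.mem_center_iff.2 fun g =>
      (mem_centralizer_iff.1 (hQc ▸ mem_top g : g ∈ centralizer ((Q : Subgroup G) : Set G)) x hx).symm
  haveI hQn : (Q : Subgroup G).Normal := ⟨fun a ha g => by
    rw [Subgroup.mem_center_iff.1 (hcen ha) g, mul_inv_cancel_right]; exact ha⟩
  obtain ⟨K, hK⟩ := exists_right_complement'_of_coprime
    (show (Nat.card (Q : Subgroup G)).Coprime (Q : Subgroup G).index from Q.card_coprime_index)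
  have hKn : K.Normal := ⟨fun k hk g => by
    obtain ⟨⟨q, k'⟩, hqk⟩ := hK.2 g
    rw [← hqk]
    show (q : G) * k' * k * ((q : G) * k')⁻¹ ∈ K
    have h1 : (q : G) * k' * k * ((q : G) * k')⁻¹ = (k' : G) * k * (k' : G)⁻¹ := by
      have hc := Subgroup.mem_center_iff.1 (hcen q.2)
      calc (q : G) * k' * k * ((q : G) * k')⁻¹ = (q : G) * ((k' : G) * k * (k' : G)⁻¹) * (q : G)⁻¹ := by group
        _ = (k' : G) * k * (k' : G)⁻¹ := by rw [← hc, mul_inv_cancel_right]
    rw [h1]
    exact mul_mem (mul_mem k'.2 hk) (inv_mem k'.2)⟩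
  have hQab : IsMulCommutative (Q : Subgroup G) :=
    ⟨⟨fun a b => Subtype.ext (Subgroup.mem_center_iff.1 (hcen a.2) b).symm⟩⟩
  have h := hnodf _ K hQn hKn (disjoint_iff.1 hK.disjoint) hK.sup_eq_top hQab
  exact Q.ne_bot_of_dvd_card hdvd h

theorem main
    (hnodf : ∀ A B : Subgroup G, A.Normal → B.Normal → A ⊓ B = ⊥ → A ⊔ B = ⊤ → IsMulCommutative A → A = ⊥)
    (m n : ℕ) (hm : 1 < m) (hn : 1 < n) (hcop : m.Coprime n)
    (h : Set.range (fun x : G => (centralizer ({x} : Set G)).index) = ({1, m, m * n} : Set ℕ)) :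
    m.Prime ∧ m ∣ n - 1 ∧
      (∃ M : Subgroup G, M.Normal ∧ (M : Set G) = {x : G | (centralizer ({x} : Set G)).index = 1 ∨
        (centralizer ({x} : Set G)).index = m} ∧ M.index = m ∧ IsMulCommutative M) ∧
      (∃ N : Subgroup G, N.Normal ∧ (Nat.card N).Coprime m ∧ ∃ a : ℕ, N.index = m ^ a) ∧
      ∀ P : Sylow m G, Nat.card (commutator (P : Subgroup G)) = m := by
  have hidx : ∀ x : G, (cz x).index = 1 ∨ (cz x).index = m ∨ (cz x).index = m * n := by
    intro x
    have : (cz x).index ∈ ({1, m, m * n} : Set ℕ) := h ▸ ⟨x, rfl⟩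
    simpa using this
  have hh : Hyp G m n := ⟨hm, hn, hcop, hidx, (h.symm ▸ (by simp) : m ∈ Set.range _),
    (h.symm ▸ (by simp) : m * n ∈ Set.range _), fun r hr hrG => by
      by_contra hnot
      rw [not_or] at hnot
      haveI := Fact.mk hr
      refine primes_of_no_factor hnodf (fun x => ?_) hrG
      rcases hidx x with e | e | e <;> rw [e]
      · exact hr.not_dvd_one
      · exact hnot.1
      · exact fun hd => (hr.dvd_mul.1 hd).elim hnot.1 hnot.2⟩
  obtain ⟨s, hs, hsm, v, hv, hvi⟩ := hh.exists_size_m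
  haveI := Fact.mk hs
  have hC := hh.good hsm hv hvi
  haveI := hC.normal hh
  have hp := hC.prime hh
  haveI := Fact.mk hp
  refine ⟨hp, hC.dvd_sub_one hh, ⟨cz v, inferInstance, hC.carrier hh, hC.index,
    ⟨⟨fun a b => Subtype.ext (mem_centralizer_iff.1 (hC.abelian hh b.2) a a.2)⟩⟩⟩,
    hC.complement hh, (hC.sylow_structure hh dvd_rfl).2.2⟩

end Cfsg.Agent.FGS4.ThreeSizes
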