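import Cfsg.Agent.FGS4.ThreeSizes.Core

/-! # The good centralizer is normal -/

set_option linter.style.haveILetI false

namespace Cfsg.Agent.FGS4.ThreeSizes

open Subgroup

variable {G : Type*} [Group G] [Finite G]

theorem card_part_inf_center {r : ℕ} [hr : Fact r.Prime] {C : Subgroup G} [Group.IsNilpotent C]
    (hZ : center G ≤ C) :
    Nat.card (part r C ⊓ center G : Subgroup G) = r ^ (Nat.card (center G)).factorization r := by
  have h : part r (center G) ≤ part r C ⊓ center G := fun a ha =>
    ⟨mem_part (isEl_of_mem_pgroup (part_pgroup r _) ha) (hZ (part_le r _ ha)), part_le r _ ha⟩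
  rw [← card_part]
  exact congrArg (fun H : Subgroup G => Nat.card H)
    (eq_of_pgroup_card ((part_pgroup r C).to_le inf_le_left) h inf_le_right (card_part r _)).symm

variable {m n : ℕ} (hh : Hyp G m n)
include hh

/-- An element with centralizer containing only central elements of coprime orders. -/
theorem Hyp.fact_of_all_central {s : ℕ} [hs : Fact s.Prime] (hsm : s ∣ m) {e : G} (heZ : e ∉ center G)
    (h : ∀ r : ℕ, r.Prime → r ≠ s → ∀ y ∈ cz e, IsEl r y → y ∈ center G) :
    (∀ t, t.Prime → t ∣ m → t = s) ∧ ∀ r, r.Prime → r ∣ n →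
      (Nat.card G).factorization r = (Nat.card (center G)).factorization r + n.factorization r := by
  constructor
  · intro t ht htm
    by_contra hne
    haveI := Fact.mk ht
    obtain ⟨u, hu, hut, huZ⟩ := hh.exists_el htm heZ
    exact huZ (h t ht hne u hu hut)
  intro r hr hrn
  haveI := Fact.mk hr
  have hrm := hh.not_dvd_m hr hrn
  have hrs : r ≠ s := fun e => hrm (e ▸ hsm)
  have h1 := fact_le_center_of_forall (r := r) (H := cz e) fun y hy hye => h r hr hrs y hy hye
  have h2 := fact_le_of_le (center_le_cz e) r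
  have h3 := fact_card_mul (cz e) r
  rcases hh.cases heZ with hi | hi
  · exfalso
    obtain ⟨w, hw⟩ := hh.exmn
    have h4 := fact_le_of_le (center_le_cz w) r
    have h5 := fact_card_mul (cz w) r
    rw [hw, Nat.factorization_mul hh.mpos hh.npos, Finsupp.add_apply,
      Nat.factorization_eq_zero_of_not_dvd hrm] at h5
    rw [hi, Nat.factorization_eq_zero_of_not_dvd hrm] at h3
    have := hr.factorization_pos_of_dvd hh.npos hrn
    omega
  · rw [hi, Nat.factorization_mul hh.mpos hh.npos, Finsupp.add_apply,
      Nat.factorization_eq_zero_of_not_dvd hrm] at h3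
    omega

/-- Fixed point free action of an outer `s`-element on the `r`-part. -/
theorem Good.dvd_pow_sub {C : Subgroup G} (hC : Good G m C) {s : ℕ} [hs : Fact s.Prime] (hsm : s ∣ m)
    {r : ℕ} [hr : Fact r.Prime] (hrs : r ≠ s) {g : G} (hg : IsEl s g)
    (hgN : g ∈ normalizer (C : Set G)) (hgC : g ∉ C) :
    s ∣ r ^ ((Nat.card C).factorization r - (Nat.card (center G)).factorization r) - 1 := by
  haveI := hC.nil
  have hZC := hC.center_le hh.hm
  obtain ⟨t, htC, hts, htZ⟩ := hC.ex s hs.out hsm
  have htc := hC.eq s t hs.out hsm hts htC htZ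
  obtain ⟨k, hk⟩ := hg
  set R := part r C
  set c := (Nat.card (center G)).factorization r
  have hle : c ≤ (Nat.card C).factorization r := fact_le_of_le hZC r
  set b := (Nat.card C).factorization r - c
  have hgR : zpowers g ≤ normalizer (R : Set G) := zpowers_le.2 (normalizer_le_normalizer_part hgN)
  let act : MulAction (zpowers g) R :=
    { smul := fun a x => ⟨(a : G) * x * (a : G)⁻¹, (mem_normalizer_iff.1 (hgR a.2) _).1 x.2⟩
      one_smul := fun x => Subtype.ext (show (1 : G) * x * (1 : G)⁻¹ = x by group)
      mul_smul := fun a a' x => Subtype.ext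
        (show ((a : G) * a') * x * ((a : G) * a')⁻¹ = a * (a' * x * (a' : G)⁻¹) * (a : G)⁻¹ by group) }
  have hfix : Nat.card (MulAction.fixedPoints (zpowers g) R) = Nat.card (R ⊓ center G : Subgroup G) := by
    refine Nat.card_congr
      { toFun := fun x => ⟨(x.1 : G), x.1.2, ?_⟩
        invFun := fun x => ⟨⟨(x : G), x.2.1⟩, fun a => Subtype.ext ?_⟩
        left_inv := fun _ => rfl
        right_inv := fun _ => rfl }
    · by_contra hxZ
      have h1 : g * (x.1 : G) * g⁻¹ = (x.1 : G) := congrArg Subtype.val (x.2 ⟨g, mem_zpowers g⟩)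
      have hxe := mem_part_iff.1 x.1.2
      refine hgC (htc ▸ hh.mem_of_commute hsm hts htZ (htc.symm ▸ hgN) ⟨k, hk⟩ (htc.symm ▸ hxe.1) hxZ
        (hxe.2.coprime fun hd => hrs ((Nat.prime_dvd_prime_iff_eq hr.out hs.out).1 hd)) ?_)
      exact mul_inv_eq_iff_eq_mul.1 h1
    · show (a : G) * x * (a : G)⁻¹ = x
      rw [Subgroup.mem_center_iff.1 x.2.2 a, mul_inv_cancel_right]
  have hmod := (pgroup_zpowers hk).card_modEq_card_fixedPoints R
  rw [hfix, card_part_inf_center hZC, card_part, show (Nat.card C).factorization r = c + b by omega] at hmod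
  have h1 : s ∣ r ^ (c + b) - r ^ c :=
    (Nat.modEq_iff_dvd' (Nat.pow_le_pow_right hr.out.pos (Nat.le_add_right c b))).1 hmod.symm
  rw [pow_add, ← Nat.mul_sub_one] at h1
  exact (((Nat.coprime_primes hs.out hr.out).2 hrs.symm).pow_right c).dvd_of_dvd_mul_left h1

theorem Good.normal {C : Subgroup G} (hC : Good G m C) : C.Normal := by
  classical
  haveI := hC.nil
  rw [← normalizer_eq_top_iff]
  set N := normalizer (C : Set G) with hN
  by_contra hne
  have hd : N.index ∣ m := hC.index ▸ index_dvd_of_le le_normalizer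
  obtain ⟨s, hs, hsN⟩ := Nat.exists_prime_and_dvd (mt index_eq_one.1 hne)
  haveI := Fact.mk hs
  have hsm := hsN.trans hd
  obtain ⟨Q, hQ⟩ := (part_pgroup s C).exists_le_sylow
  rcases shape hh hC hsm Q hQ with hle | ⟨⟨g, hgQ, hgN, hgC⟩, hcard, e, -, heZ, hecent⟩
  · exact Q.not_dvd_index (hsN.trans (index_dvd_of_le hle))
  obtain ⟨honly, hab⟩ := hh.fact_of_all_central hsm heZ hecent
  have habel := hC.commute_all hh hab
  -- `N` has index `s`
  have hj : N.index = s := by
    have h1 : N.index = s ^ N.index.factorization s := by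
      apply Nat.eq_of_factorization_eq index_ne_zero_of_finite (pow_ne_zero _ hs.ne_zero)
      intro t
      rw [hs.factorization_pow]
      by_cases ht : t = s
      · subst ht; rw [Finsupp.single_eq_same]
      · rw [Finsupp.single_eq_of_ne ht]
        by_contra h0
        have ht' := Nat.prime_of_mem_primeFactors
          (Nat.support_factorization N.index ▸ Finsupp.mem_support_iff.2 h0)
        exact ht (honly t ht' ((Nat.dvd_of_factorization_pos h0).trans hd))
    have h2 : N.index.factorization s ≤ 1 := by
      have h3 := le_fact_of_pgroup (Q.isPGroup'.to_le (inf_le_left : (Q : Subgroup G) ⊓ N ≤ _))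
        (H := N) inf_le_right
      have h4 := hcard.trans (Nat.mul_le_mul_left s h3)
      rw [sylow_card_eq Q, ← pow_succ'] at h4
      have h5 := (Nat.pow_le_pow_iff_right hs.one_lt).1 h4
      have h6 := fact_card_mul N s
      omega
    have h7 := hs.factorization_pos_of_dvd index_ne_zero_of_finite hsN
    rw [h1, show N.index.factorization s = 1 by omega, pow_one]
  obtain ⟨r, hr, hrn⟩ := Nat.exists_prime_and_dvd hh.hn.ne'
  haveI := Fact.mk hr
  have hrm := hh.not_dvd_m hr hrn
  have hrs : r ≠ s := fun e => hrm (e ▸ hsm)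
  set R := part r C with hR
  have hZC := hC.center_le hh.hm
  set b := n.factorization r
  set c := (Nat.card (center G)).factorization r
  have hRcard : Nat.card R = r ^ (c + b) := by
    rw [hR, card_part, ← hab r hr hrn]
    congr 1
    rw [fact_card_mul C r, hC.index, Nat.factorization_eq_zero_of_not_dvd hrm, add_zero]
  have hRZcard := card_part_inf_center (r := r) hZC
  obtain ⟨t, htC, hts, htZ⟩ := hC.ex s hs hsm
  have htc := hC.eq s t hs hsm hts htC htZ
  have hcz : ∀ z ∈ C, z ∉ center G → cz z = C := by
    intro z hz hzZ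
    have h1 : C ≤ cz z := fun w hw => mem_cz.2 ((mem_centralizer_iff.1 (habel hz)) w hw)
    rw [← htc] at h1 ⊢
    exact (hh.eq_of_le hzZ h1 (htc ▸ hC.index)).symm
  -- (A) fixed points of `g` on `R`
  have hA : s ∣ r ^ b - 1 := by
    have h1 := hC.dvd_pow_sub hh hsm hrs (isEl_of_mem_pgroup Q.isPGroup' hgQ) hgN hgC
    have h2 : (Nat.card C).factorization r = c + b := by
      rw [hR, card_part] at hRcard
      exact Nat.pow_right_injective hr.two_le hRcard
    rwa [h2, Nat.add_sub_cancel_left] at h1
  -- (B) an orbit of `R` on `G ⧸ N`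
  have hB : r ^ b ≤ s - 1 := by
    obtain ⟨h, hh'⟩ := SetLike.exists_not_mem_of_ne_top N hne
    set x : G ⧸ N := (h : G ⧸ N)
    have hfixN : ∀ a : R, a • ((1 : G) : G ⧸ N) = ((1 : G) : G ⧸ N) := fun a => by
      show (((a : G) * 1 : G) : G ⧸ N) = _
      rw [QuotientGroup.eq]
      simpa using le_normalizer (part_le r C a.2)
    have hstab : MulAction.stabilizer R x ≤ (center G).subgroupOf R := by
      intro a ha
      rw [mem_subgroupOf]
      by_contra haZ
      have h1 : (((a : G) * h : G) : G ⧸ N) = (h : G ⧸ N) := ha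
      rw [QuotientGroup.eq] at h1
      have h2 : h⁻¹ * (a : G) * h ∈ N := by
        have := inv_mem h1
        simpa [mul_assoc] using this
      have har := (mem_part_iff.1 a.2).2
      have hy : h⁻¹ * (a : G) * h ∈ C := by
        refine el_mem_of_fact_eq (L := C.subgroupOf N) (H := ⊤) (v := (⟨_, h2⟩ : N)) (q := r) le_top ?_ ?_
          (mem_top _)
        · rw [Nat.card_congr (subgroupOfEquivOfLe (le_normalizer : C ≤ N)).toEquiv, card_top]
          have h3 := fact_card_mul N r
          rw [hj, Nat.factorization_eq_zero_of_not_dvd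
            (fun hd => hrs ((Nat.prime_dvd_prime_iff_eq hr hs).1 hd))] at h3
          have h4 := fact_card_mul C r
          rw [hC.index, Nat.factorization_eq_zero_of_not_dvd hrm] at h4
          omega
        · obtain ⟨k, hk⟩ := har.conj h⁻¹
          exact ⟨k, by rw [Subgroup.orderOf_mk]; simpa using hk⟩
      apply hh'
      have hyZ : h⁻¹ * (a : G) * h ∉ center G := fun hc => haZ (by
        have := Subgroup.Normal.conj_mem (inferInstance : (center G).Normal) _ hc h
        simpa [mul_assoc] using this)
      have h5 : cz (a : G) = C := hcz _ (part_le r C a.2) haZ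
      have h6 := hcz _ hy hyZ
      have h7 : (cz (h⁻¹ * (a : G) * h)).map (MulAut.conj h).toMonoidHom = cz (a : G) := by
        rw [← cz_conj]; congr 1; group
      rw [h5, h6] at h7
      rw [hN, mem_normalizer_iff_map_conj_eq]
      exact h7
    have h1 : ((center G).subgroupOf R).index ≤ (MulAction.stabilizer R x).index :=
      Nat.le_of_dvd (Nat.pos_of_ne_zero index_ne_zero_of_finite) (index_dvd_of_le hstab)
    have h2 : ((center G).subgroupOf R).index = r ^ b := by
      have h3 := ((center G).subgroupOf R).card_mul_index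
      rw [← inf_subgroupOf_left, Nat.card_congr (subgroupOfEquivOfLe inf_le_left).toEquiv, hRZcard,
        inf_subgroupOf_left, hRcard, pow_add] at h3
      exact Nat.eq_of_mul_eq_mul_left (pow_pos hr.pos _) h3
    rw [h2, MulAction.index_stabilizer] at h1
    refine h1.trans ?_
    have h4 : MulAction.orbit R x ⊆ (Set.univ \ {((1 : G) : G ⧸ N)}) := by
      rintro _ ⟨a, rfl⟩
      refine ⟨trivial, fun e : a • x = ((1 : G) : G ⧸ N) => hh' ?_⟩
      rw [← hfixN a, smul_left_cancel_iff] at e
      simpa using QuotientGroup.eq.1 e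
    refine (Set.ncard_le_ncard h4 (Set.toFinite _)).trans ?_
    rw [Set.ncard_sdiff (Set.subset_univ _), Set.ncard_univ, Set.ncard_singleton, ← index_eq_card, hj]
  have hb : 0 < b := hr.factorization_pos_of_dvd hh.npos hrn
  have h2 : 2 ≤ r ^ b := le_trans hr.two_le (Nat.le_self_pow hb.ne' r)
  have := Nat.le_of_dvd (by omega) hA
  omega

end Cfsg.Agent.FGS4.ThreeSizes
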