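import Cfsg.Agent.FGS4.ThreeSizes.Nilpotent
import Mathlib.Algebra.BigOperators.Group.Finset.Basic
import Mathlib.Algebra.Group.Subgroup.Basic

/-! # Elementary groups of rank two cannot act on the centralizer without fixed points -/

set_option linter.style.haveILetI false

namespace Cfsg.Agent.FGS4.ThreeSizes

open Subgroup

/-- Two commuting automorphisms of order `s` with all products fixed point free kill exponents prime to `s`. -/
theorem pow_eq_one_of_fpf {Y : Type*} [CommGroup Y] {s : ℕ} (hs : s.Prime) (α β : MulAut Y)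
    (hα : α ^ s = 1) (hβ : β ^ s = 1) (hc : Commute α β) (hfa : ∀ y, α y = y → y = 1)
    (hfi : ∀ i < s, ∀ y, (α ^ i * β) y = y → y = 1) (y : Y) : y ^ s = 1 := by
  classical
  have hshift : ∀ γ : MulAut Y, γ ^ s = 1 → ∀ w : Y,
      γ (∏ j ∈ Finset.range s, (γ ^ j) w) = ∏ j ∈ Finset.range s, (γ ^ j) w := by
    intro γ hγ w
    have h1 := Finset.prod_range_succ' (fun j => (γ ^ j) w) s
    have h2 := Finset.prod_range_succ (fun j => (γ ^ j) w) s
    rw [h2, hγ] at h1
    have h3 : γ (∏ j ∈ Finset.range s, (γ ^ j) w) = ∏ j ∈ Finset.range s, (γ ^ (j + 1)) w := by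
      rw [map_prod]
      exact Finset.prod_congr rfl fun j _ => by rw [pow_succ' γ j]; rfl
    rw [h3]
    simpa using h1.symm
  have hrow : ∀ i < s, ∏ j ∈ Finset.range s, ((α ^ i * β) ^ j) y = 1 := fun i hi =>
    hfi i hi _ (hshift _ (by
      rw [(hc.pow_left i).mul_pow, hβ, ← pow_mul, mul_comm i, pow_mul, hα, one_pow, mul_one]) y)
  have htot : ∏ j ∈ Finset.range s, ∏ i ∈ Finset.range s, ((α ^ i * β) ^ j) y = 1 := by
    rw [Finset.prod_comm]
    exact Finset.prod_eq_one fun i hi => hrow i (Finset.mem_range.1 hi)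
  rw [Finset.prod_eq_single 0] at htot
  · simpa using htot
  · intro j hj hj0
    have hcop : Nat.Coprime j s := ((hs.coprime_iff_not_dvd).2 fun hd =>
      absurd (Nat.le_of_dvd (Nat.pos_of_ne_zero hj0) hd) (not_le.2 (Finset.mem_range.1 hj))).symm
    have e : ∀ i : ℕ, ((α ^ i * β) ^ j) y = ((α ^ j) ^ i) ((β ^ j) y) := fun i => by
      rw [(hc.pow_left i).mul_pow, ← pow_mul, mul_comm i, pow_mul]; rfl
    rw [Finset.prod_congr rfl fun i _ => e i]
    refine hfa _ ?_
    have hfix := hshift (α ^ j) (by rw [← pow_mul, mul_comm, pow_mul, hα, one_pow]) ((β ^ j) y)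
    set z := ∏ i ∈ Finset.range s, ((α ^ j) ^ i) ((β ^ j) y)
    have hst : α ^ j ∈ MulAction.stabilizer (MulAut Y) z := hfix
    have hord : orderOf α ∣ s := orderOf_dvd_of_pow_eq_one hα
    obtain ⟨t, ht⟩ := exists_pow_eq_self_of_coprime (hcop.coprime_dvd_right hord)
    exact (ht ▸ pow_mem hst t : α ∈ MulAction.stabilizer (MulAut Y) z)
  · intro h; exact absurd (Finset.mem_range.2 hs.pos) h

variable {G : Type*} [Group G]

/-- Central commutators of coprime elements vanish. -/
theorem commute_of_central {g y : G} (h : g * y * g⁻¹ * y⁻¹ ∈ center G)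
    (hcop : (orderOf g).Coprime (orderOf y)) : Commute g y := by
  set z := g * y * g⁻¹ * y⁻¹ with hz
  have hzc := Subgroup.mem_center_iff.1 h
  have e : g * y * g⁻¹ = z * y := by rw [hz]; group
  have h1 : z ^ orderOf y = 1 := by
    have : (g * y * g⁻¹) ^ orderOf y = 1 := by rw [conj_pow, pow_orderOf_eq_one]; group
    rwa [e, (show Commute z y from (hzc y).symm).mul_pow, pow_orderOf_eq_one, mul_one] at this
  have h2 : ∀ k : ℕ, g ^ k * y * (g ^ k)⁻¹ = z ^ k * y := by
    intro k
    induction k with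
    | zero => simp
    | succ k ih =>
      calc g ^ (k + 1) * y * (g ^ (k + 1))⁻¹ = g * (g ^ k * y * (g ^ k)⁻¹) * g⁻¹ := by
            rw [pow_succ']; group
        _ = (g * z ^ k * g⁻¹) * (g * y * g⁻¹) := by rw [ih]; group
        _ = z ^ k * (z * y) := by
            rw [Subgroup.mem_center_iff.1 (pow_mem h k) g, mul_inv_cancel_right, e]
        _ = z ^ (k + 1) * y := (mul_assoc (z ^ k) z y).symm.trans (by rw [pow_succ])
  have h3 : z ^ orderOf g = 1 := by
    have := h2 (orderOf g)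
    rw [pow_orderOf_eq_one] at this
    simpa using this.symm
  have hz1 : z = 1 := by
    rw [← orderOf_eq_one_iff]
    exact Nat.eq_one_of_dvd_coprimes hcop (orderOf_dvd_of_pow_eq_one h3) (orderOf_dvd_of_pow_eq_one h1)
  rw [hz1, one_mul] at e
  exact mul_inv_eq_iff_eq_mul.1 e

/-- The subgroup of `R` commuting with `R` modulo the centre. -/
def modCentre (R : Subgroup G) : Subgroup G :=
  R ⊓ (centralizer ((R.map (QuotientGroup.mk' (center G))) : Set (G ⧸ center G))).comap
    (QuotientGroup.mk' (center G))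

variable [Finite G] {m n : ℕ} (hh : Hyp G m n)
include hh

/-- An `s`-element normalizing `cz u` and centralizing a noncentral `s'`-element in it lies in it. -/
theorem Hyp.mem_of_commute {s : ℕ} [hs : Fact s.Prime] (hsm : s ∣ m) {u : G} (hu : IsEl s u)
    (huZ : u ∉ center G) {g y : G} (hgN : g ∈ normalizer (cz u : Set G)) (hg : IsEl s g)
    (hy : y ∈ cz u) (hyZ : y ∉ center G) (hys : (orderOf y).Coprime s) (hgy : Commute g y) :
    g ∈ cz u := by
  haveI := hh.nilpotent hsm hu huZ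
  set S := part s (cz u)
  have hSy : S ≤ cz y := fun a ha => by
    obtain ⟨k, hk⟩ := (mem_part_iff.1 ha).2
    exact mem_cz.2 (commute_in (mem_part_iff.1 ha).1 hy (by rw [hk]; exact hys.symm.pow_left k)).eq
  obtain ⟨k, hk⟩ := hg
  have hgS : zpowers g ≤ normalizer (S : Set G) := zpowers_le.2 (normalizer_le_normalizer_part hgN)
  have hT : IsPGroup s (zpowers g ⊔ S : Subgroup G) :=
    (pgroup_zpowers hk).to_sup_of_normal_right' (part_pgroup s _) hgS
  have hcard : Nat.card S = s ^ (Nat.card (cz y)).factorization s := by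
    rw [card_part, hh.fact_eq hs.out hsm huZ hyZ]
  have e := eq_of_pgroup_card hT le_sup_right (sup_le (zpowers_le.2 (mem_cz.2 hgy.eq)) hSy) hcard
  exact part_le s _ (e ▸ mem_sup_left (mem_zpowers g) : g ∈ S)

theorem Hyp.no_two {s r : ℕ} [hs : Fact s.Prime] [hr : Fact r.Prime] (hrs : r ≠ s) (hsm : s ∣ m)
    {u : G} (hu : IsEl s u) (huZ : u ∉ center G) {y : G} (hy : y ∈ cz u) (hyr : IsEl r y)
    (hyZ : y ∉ center G) {T : Subgroup G} (hT : IsPGroup s T) (hTN : T ≤ normalizer (cz u : Set G))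
    (hpow : ∀ g ∈ T, g ^ s ∈ cz u) (hcomm : ∀ g ∈ T, ∀ h ∈ T, g * h * g⁻¹ * h⁻¹ ∈ cz u)
    {g h : G} (hg : g ∈ T) (hh' : h ∈ T) (hgU : g ∉ cz u) : ∃ i : ℕ, g ^ i * h ∈ cz u := by
  classical
  by_contra hne
  push Not at hne
  haveI := hh.nilpotent hsm hu huZ
  set R := part r (cz u) with hR
  set π := QuotientGroup.mk' (center G) with hπ
  set A := modCentre R with hA
  set Y := A.map π with hY
  have hAR : A ≤ R := inf_le_left
  have hcommY : ∀ a b : Y, a * b = b * a := by
    rintro ⟨_, a, ha, rfl⟩ ⟨_, b, hb, rfl⟩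
    have h1 : π a ∈ centralizer ((R.map π : Subgroup (G ⧸ center G)) : Set (G ⧸ center G)) := ha.2
    exact Subtype.ext (mem_centralizer_iff.1 h1 (π b) ⟨b, hAR hb, rfl⟩).symm
  letI : CommGroup Y := { (inferInstance : Group Y) with mul_comm := hcommY }
  have hNA : ∀ t ∈ normalizer (R : Set G), ∀ a ∈ A, t * a * t⁻¹ ∈ A := by
    intro t ht a ha
    refine ⟨(mem_normalizer_iff.1 ht a).1 ha.1, ?_⟩
    show π (t * a * t⁻¹) ∈ centralizer ((R.map π : Subgroup (G ⧸ center G)) : Set (G ⧸ center G))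
    rw [mem_centralizer_iff]
    rintro _ ⟨b, hb, rfl⟩
    have hb' : t⁻¹ * b * t ∈ R := by rw [mem_normalizer_iff.1 ht]; simpa [mul_assoc] using hb
    have h1 := mem_centralizer_iff.1 (ha.2 : π a ∈ _) (π (t⁻¹ * b * t)) ⟨_, hb', rfl⟩
    calc π b * π (t * a * t⁻¹) = π t * (π (t⁻¹ * b * t) * π a) * (π t)⁻¹ := by
          simp only [map_mul, map_inv]; group
      _ = π t * (π a * π (t⁻¹ * b * t)) * (π t)⁻¹ := by rw [h1]
      _ = π (t * a * t⁻¹) * π b := by simp only [map_mul, map_inv]; group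
  have hTY : ∀ t ∈ T, π t ∈ normalizer (Y : Set (G ⧸ center G)) := by
    intro t ht
    have htR : t ∈ normalizer (R : Set G) := normalizer_le_normalizer_part (hTN ht)
    apply le_normalizer_map π
    refine ⟨t, ?_, rfl⟩
    rw [SetLike.mem_coe, mem_normalizer_iff]
    refine fun a => ⟨hNA t htR a, fun ha => ?_⟩
    have := hNA t⁻¹ (inv_mem htR) _ ha
    simpa [mul_assoc] using this
  let act : T →* MulAut Y := Y.normalizerMonoidHom.comp
    ((π.comp T.subtype).codRestrict (normalizer (Y : Set (G ⧸ center G))) (fun t => hTY t t.2))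
  have hact : ∀ (t : T) (a : Y), ((act t a : Y) : G ⧸ center G) = π t * a * (π t)⁻¹ := fun t a => rfl
  have htriv : ∀ t : T, (t : G) ∈ cz u → act t = 1 := by
    intro t htU
    refine MulEquiv.ext fun ⟨w, a, ha, hw⟩ => Subtype.ext ?_
    subst hw
    rw [hact]
    have h1 := commute_in htU (part_le r _ (hAR ha))
      (IsEl.coprime' (isEl_of_mem_pgroup hT t.2) (mem_part_iff.1 (hAR ha)).2 hrs.symm)
    show π (t : G) * π a * (π (t : G))⁻¹ = π a
    rw [← map_inv, ← map_mul, ← map_mul, h1.eq, mul_inv_cancel_right]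
  have hfix : ∀ t : T, (t : G) ∉ cz u → ∀ a : Y, act t a = a → a = 1 := by
    intro t htU ⟨w, a, ha, hw⟩ hfx
    subst hw
    by_contra ha1
    have haZ : a ∉ center G := fun h => ha1 (Subtype.ext ((QuotientGroup.eq_one_iff a).2 h))
    have h1 : π (t : G) * π a * (π (t : G))⁻¹ = π a := congrArg Subtype.val hfx
    have h2 : (t : G) * a * (t : G)⁻¹ * a⁻¹ ∈ center G := by
      rw [← QuotientGroup.eq_one_iff, ← QuotientGroup.mk'_apply, map_mul, map_mul, map_mul, map_inv,
        map_inv, h1, mul_inv_cancel]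
    have har : IsEl r a := (mem_part_iff.1 (hAR ha)).2
    have hts : IsEl s (t : G) := isEl_of_mem_pgroup hT t.2
    have hrs' : (orderOf a).Coprime s :=
      har.coprime (fun hd => hrs ((Nat.prime_dvd_prime_iff_eq hr.out hs.out).1 hd))
    exact htU (hh.mem_of_commute hsm hu huZ (hTN t.2) hts (part_le r _ (hAR ha)) haZ hrs'
      (commute_of_central h2 (IsEl.coprime' hts har hrs.symm)))
  set tg : T := ⟨g, hg⟩
  set th : T := ⟨h, hh'⟩
  have hall : ∀ a : Y, a ^ s = 1 := pow_eq_one_of_fpf hs.out (act tg) (act th)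
    (by rw [← map_pow]; exact htriv _ (hpow g hg)) (by rw [← map_pow]; exact htriv _ (hpow h hh'))
    (by
      have h1 := htriv (tg * th * tg⁻¹ * th⁻¹) (hcomm g hg h hh')
      rw [map_mul, map_mul, map_mul, map_inv, map_inv, mul_inv_eq_one, mul_inv_eq_iff_eq_mul] at h1
      exact h1)
    (hfix tg hgU)
    (fun i _ a ha => hfix (tg ^ i * th) (hne i) a (by rw [map_mul, map_pow]; exact ha))
  -- `Y` is not trivial
  set R' := R.map π
  haveI : Group.IsNilpotent R' := ((part_pgroup r (cz u)).map π).isNilpotent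
  have hyR : y ∈ R := mem_part hyr hy
  haveI : Nontrivial R' := ⟨⟨⟨π y, y, hyR, rfl⟩, 1, fun e => hyZ ((QuotientGroup.eq_one_iff y).1 (congrArg Subtype.val e))⟩⟩
  haveI := (((part_pgroup r (cz u)).map π)).center_nontrivial
  obtain ⟨c, hc⟩ := exists_ne (1 : center R')
  obtain ⟨a, ha, hca⟩ := (c : R').2
  have haA : a ∈ A := by
    refine ⟨ha, ?_⟩
    show π a ∈ centralizer ((R.map π : Subgroup (G ⧸ center G)) : Set (G ⧸ center G))
    rw [mem_centralizer_iff]
    intro b hb
    rw [hca]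
    exact congrArg Subtype.val (Subgroup.mem_center_iff.1 c.2 ⟨b, hb⟩)
  have h1 : (π a) ^ s = 1 := congrArg Subtype.val (hall ⟨π a, a, haA, rfl⟩)
  have h2 : IsEl r (π a) := isEl_of_mem_pgroup ((part_pgroup r (cz u)).map π) ⟨a, ha, rfl⟩
  refine hc (Subtype.ext (Subtype.ext (show ((c : R') : G ⧸ center G) = 1 from ?_)))
  rw [← hca, ← orderOf_eq_one_iff]
  exact Nat.eq_one_of_dvd_coprimes
    (h2.coprime fun hd => hrs ((Nat.prime_dvd_prime_iff_eq hr.out hs.out).1 hd))
    dvd_rfl (orderOf_dvd_of_pow_eq_one h1)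

end Cfsg.Agent.FGS4.ThreeSizes
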