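import Cfsg.Agent.FGS4.ThreeSizes.Normal
import Mathlib.GroupTheory.Commutator.Basic

/-! # The structure: `m` is prime and the good centralizer is abelian of index `m` -/

set_option linter.style.haveILetI false

namespace Cfsg.Agent.FGS4.ThreeSizes

open Subgroup
open scoped commutatorElement

variable {G : Type*} [Group G] [Finite G]

variable {m n : ℕ} (hh : Hyp G m n)
include hh

/-- Elements of order prime to `m` lie in a normal good centralizer. -/
theorem Good.el_mem {C : Subgroup G} (hC : Good G m C) [C.Normal] {r : ℕ} [hr : Fact r.Prime]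
    (hrn : r ∣ n) {x : G} (hx : IsEl r x) : x ∈ C := by
  refine el_mem_of_fact_eq (L := C) (H := ⊤) le_top ?_ hx (mem_top _)
  rw [card_top, fact_card_mul C r, hC.index,
    Nat.factorization_eq_zero_of_not_dvd (hh.not_dvd_m hr.out hrn), add_zero]

theorem Good.exists_outside {C : Subgroup G} (hC : Good G m C) {s : ℕ} [hs : Fact s.Prime] (hsm : s ∣ m)
    (Q : Sylow s G) : ∃ f ∈ (Q : Subgroup G), f ∉ C := by
  by_contra hne
  push Not at hne
  exact Q.not_dvd_index ((hC.index.symm ▸ hsm : s ∣ C.index).trans (index_dvd_of_le hne))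

theorem Good.card_r {C : Subgroup G} (hC : Good G m C) [C.Normal] {r : ℕ} (hr : r.Prime) (hrn : r ∣ n) :
    (Nat.card G).factorization r = (Nat.card (center G)).factorization r + n.factorization r := by
  haveI := Fact.mk hr
  haveI := hC.nil
  obtain ⟨s, hs, hsm⟩ := Nat.exists_prime_and_dvd hh.hm.ne'
  haveI := Fact.mk hs
  obtain ⟨Q⟩ : Nonempty (Sylow s G) := inferInstance
  obtain ⟨f, hfQ, hfC⟩ := hC.exists_outside hh hsm Q
  obtain ⟨t, htC, hts, htZ⟩ := hC.ex s hs hsm
  have htc := hC.eq s t hs hsm hts htC htZ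
  have hrm := hh.not_dvd_m hr hrn
  have hrs : r ≠ s := fun e => hrm (e ▸ hsm)
  have h1 := fact_le_center_of_forall (r := r) (H := cz f) fun y hy hye => by
    by_contra hyZ
    refine hfC (htc ▸ hh.mem_of_commute hsm hts htZ ?_ (isEl_of_mem_pgroup Q.isPGroup' hfQ)
      (htc.symm ▸ hC.el_mem hh hrn hye) hyZ
      (hye.coprime fun hd => hrs ((Nat.prime_dvd_prime_iff_eq hr hs).1 hd)) (mem_cz.1 hy).symm)
    rw [htc, normalizer_eq_top]; exact mem_top _
  have h2 := fact_le_of_le (center_le_cz f) r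
  have h3 := fact_card_mul (cz f) r
  have hfZ : f ∉ center G := fun h => hfC (hC.center_le hh.hm h)
  obtain ⟨w, hw⟩ := hh.exmn
  have h4 := fact_le_of_le (center_le_cz w) r
  have h5 := fact_card_mul (cz w) r
  rw [hw, Nat.factorization_mul hh.mpos hh.npos, Finsupp.add_apply,
    Nat.factorization_eq_zero_of_not_dvd hrm] at h5
  have := hr.factorization_pos_of_dvd hh.npos hrn
  rcases hh.cases hfZ with hi | hi
  · rw [hi, Nat.factorization_eq_zero_of_not_dvd hrm] at h3; omega
  · rw [hi, Nat.factorization_mul hh.mpos hh.npos, Finsupp.add_apply,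
      Nat.factorization_eq_zero_of_not_dvd hrm] at h3
    omega

theorem Good.abelian {C : Subgroup G} (hC : Good G m C) [C.Normal] : C ≤ centralizer (C : Set G) :=
  hC.commute_all hh fun _ hr hrn => hC.card_r hh hr hrn

theorem Good.cz_eq {C : Subgroup G} (hC : Good G m C) [C.Normal] {x : G} (hx : x ∈ C)
    (hxZ : x ∉ center G) : cz x = C := by
  obtain ⟨s, hs, hsm⟩ := Nat.exists_prime_and_dvd hh.hm.ne'
  obtain ⟨t, htC, hts, htZ⟩ := hC.ex s hs hsm
  have htc := hC.eq s t hs hsm hts htC htZ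
  have h1 : C ≤ cz x := fun w hw => mem_cz.2 (mem_centralizer_iff.1 (hC.abelian hh hx) w hw)
  rw [← htc] at h1 ⊢
  exact (hh.eq_of_le hxZ h1 (htc ▸ hC.index)).symm

theorem Good.carrier {C : Subgroup G} (hC : Good G m C) [C.Normal] :
    (C : Set G) = {x : G | (cz x).index = 1 ∨ (cz x).index = m} := by
  ext x
  constructor
  · intro hx
    by_cases hxZ : x ∈ center G
    · exact Or.inl (idx_one_iff.2 hxZ)
    · exact Or.inr (by rw [hC.cz_eq hh hx hxZ, hC.index])
  · rintro (hx | hx)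
    · exact hC.center_le hh.hm (idx_one_iff.1 hx)
    obtain ⟨r, hr, hrn⟩ := Nat.exists_prime_and_dvd hh.hn.ne'
    haveI := Fact.mk hr
    obtain ⟨y, hy, hyr, hyZ⟩ : ∃ y ∈ cz x, IsEl r y ∧ y ∉ center G := by
      refine exists_noncentral_of_lt ?_
      rw [hh.fact_full (hh.not_dvd_m hr hrn) hx, hC.card_r hh hr hrn]
      have := hr.factorization_pos_of_dvd hh.npos hrn
      omega
    rw [SetLike.mem_coe, ← hC.cz_eq hh (hC.el_mem hh hrn hyr) hyZ]
    exact mem_cz_symm hy

/-- Everything about one prime divisor of `m`. -/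
theorem Good.sylow_structure {C : Subgroup G} (hC : Good G m C) [C.Normal] {s : ℕ} [hs : Fact s.Prime]
    (hsm : s ∣ m) :
    m.factorization s = 1 ∧
      (Nat.card C).factorization s = (Nat.card (center G)).factorization s + 1 ∧
      ∀ P : Sylow s G, Nat.card (commutator (P : Subgroup G)) = s := by
  classical
  haveI := hC.nil
  have hab := hC.abelian hh
  have hZC := hC.center_le hh.hm
  have hNtop : normalizer (C : Set G) = ⊤ := normalizer_eq_top C
  obtain ⟨r, hr, hrn⟩ := Nat.exists_prime_and_dvd hh.hn.ne'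
  haveI := Fact.mk hr
  have hrs : r ≠ s := fun e => hh.not_dvd_m hr hrn (e ▸ hsm)
  obtain ⟨y, hy, hyr, hyZ⟩ : ∃ y ∈ C, IsEl r y ∧ y ∉ center G := by
    refine exists_noncentral_of_lt ?_
    have h1 := fact_card_mul C r
    rw [hC.index, Nat.factorization_eq_zero_of_not_dvd (hh.not_dvd_m hr hrn), hC.card_r hh hr hrn] at h1
    have := hr.factorization_pos_of_dvd hh.npos hrn
    omega
  set π := QuotientGroup.mk' (center G) with hπ
  have hπ1 : ∀ x, π x = 1 ↔ x ∈ center G := fun x => QuotientGroup.eq_one_iff x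
  -- the data in one Sylow subgroup
  have data : ∀ Q : Sylow s G, ∃ t ∈ (Q : Subgroup G), ∃ f ∈ (Q : Subgroup G), t ∈ C ∧ t ∉ center G ∧
      f ∉ C ∧ t ^ s ∈ center G ∧ f * t * f⁻¹ * t⁻¹ ∈ center G ∧
      ∀ h ∈ (Q : Subgroup G), ∀ g ∈ (Q : Subgroup G), g ∉ C → ∃ i : ℕ, i < s ∧ g ^ i * h ∈ C := by
    intro Q
    set Qb := (Q : Subgroup G).map π
    have hQbp : IsPGroup s Qb := Q.isPGroup'.map π
    set Sb := ((((Q : Subgroup G) ⊓ C).map π).subgroupOf Qb)
    haveI : Sb.Normal := ⟨fun a ha b => by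
      rw [mem_subgroupOf] at ha ⊢
      obtain ⟨w, hw, hwa⟩ := ha
      obtain ⟨g, hg, hgb⟩ := b.2
      refine ⟨g * w * g⁻¹, ⟨Subgroup.mul_mem _ (Subgroup.mul_mem _ hg hw.1) (Subgroup.inv_mem _ hg),
        (inferInstance : C.Normal).conj_mem w hw.2 g⟩, ?_⟩
      rw [map_mul, map_mul, map_inv, hwa, hgb]; rfl⟩
    obtain ⟨u, huC, hus, huZ⟩ := hC.ex s hs.out hsm
    have hSne : Sb ≠ ⊥ := by
      intro hbot
      have h1 : ∀ w ∈ (Q : Subgroup G) ⊓ C, w ∈ center G := by
        intro w hw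
        have h2 : (⟨π w, w, hw.1, rfl⟩ : Qb) ∈ Sb := mem_subgroupOf.2 ⟨w, hw, rfl⟩
        rw [hbot, mem_bot] at h2
        exact (hπ1 w).1 (congrArg Subtype.val h2)
      have h3 := le_fact_of_pgroup (Q.isPGroup'.to_le inf_le_left) (H := center G) h1
      rw [card_inf_sylow Q C (hNtop ▸ le_top)] at h3
      have h4 := (Nat.pow_le_pow_iff_right hs.out.one_lt).1 h3
      have h5 := center_fact_lt hZC hus huC huZ
      omega
    haveI : Group.IsNilpotent Qb := hQbp.isNilpotent
    obtain ⟨w, hwS, hw1, hwc⟩ := OddLocal.exists_ne_one_mem_center_of_normal Sb hSne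
    obtain ⟨c, hc⟩ : ∃ c : (Sb ⊓ center Qb : Subgroup Qb), orderOf c = s := by
      obtain ⟨j, hj⟩ := IsPGroup.iff_card.mp (hQbp.to_subgroup (Sb ⊓ center Qb))
      refine exists_prime_orderOf_dvd_card' s ?_
      rw [hj]
      refine dvd_pow_self s fun h0 => ?_
      rw [h0, pow_zero] at hj
      have := (Subgroup.card_eq_one (H := Sb ⊓ center Qb)).1 hj
      exact hw1 (mem_bot.1 (this ▸ ⟨hwS, hwc⟩ : w ∈ (⊥ : Subgroup Qb)))
    obtain ⟨t, ⟨htQ, htC⟩, htc'⟩ := mem_subgroupOf.1 c.2.1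
    have htZ : t ∉ center G := fun h => by
      have : c = 1 := Subtype.ext (Subtype.ext (htc'.symm.trans ((hπ1 t).2 h)))
      rw [this, orderOf_one] at hc
      exact hs.out.ne_one hc.symm
    have htpow : t ^ s ∈ center G := by
      rw [← hπ1, map_pow, htc', ← SubmonoidClass.coe_pow, ← SubmonoidClass.coe_pow, ← hc,
        pow_orderOf_eq_one]
      rfl
    have htQc : ∀ g ∈ (Q : Subgroup G), g * t * g⁻¹ * t⁻¹ ∈ center G := fun g hg => by
      rw [← hπ1, map_mul, map_mul, map_mul, map_inv, map_inv, mul_inv_eq_one, mul_inv_eq_iff_eq_mul, htc']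
      exact congrArg Subtype.val (Subgroup.mem_center_iff.1 c.2.2 ⟨π g, g, hg, rfl⟩)
    have htcz := hC.cz_eq hh htC htZ
    have hpow : ∀ g ∈ (Q : Subgroup G), g ^ s ∈ C := by
      intro g hg
      rw [← htcz, mem_cz, ← commute_iff_comm_eq_one, comm_pow_left (htQc g hg), ← comm_pow_right (htQc g hg),
        Subgroup.mem_center_iff.1 htpow g, mul_inv_cancel_right, mul_inv_cancel]
    obtain ⟨f, hf, hfC⟩ := hC.exists_outside hh hsm Q
    refine ⟨t, htQ, f, hf, htC, htZ, hfC, htpow, htQc f hf, fun h hh' g hg hgC => ?_⟩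
    obtain ⟨i, hi⟩ := hh.no_two hrs hsm (u := t) (isEl_of_mem_pgroup Q.isPGroup' htQ) htZ
      (y := y) (by rwa [htcz]) hyr hyZ (T := (Q : Subgroup G)) Q.isPGroup'
      (by rw [htcz, hNtop]; exact le_top) (fun a ha => by rw [htcz]; exact hpow a ha)
      (fun a ha b hb => mem_cz.2 (comm_commutator (htQc a ha) (htQc b hb))) (g := g) (h := h) hg hh'
      (by rwa [htcz])
    rw [htcz] at hi
    refine ⟨i % s, Nat.mod_lt _ hs.out.pos, ?_⟩
    have e1 : g ^ i = (g ^ s) ^ (i / s) * g ^ (i % s) := by rw [← pow_mul, ← pow_add, Nat.div_add_mod]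
    rw [e1, mul_assoc] at hi
    exact (C.mul_mem_cancel_left (pow_mem (hpow g hg) _)).1 hi
  -- `Q` meets `C` in index `s`
  have hcover : ∀ Q : Sylow s G, ∀ g ∈ (Q : Subgroup G), g ∉ C →
      Nat.card (Q : Subgroup G) ≤ s * Nat.card ((Q : Subgroup G) ⊓ C : Subgroup G) := by
    intro Q g hg hgC
    obtain ⟨-, -, -, -, -, -, -, -, -, hdec⟩ := data Q
    let ψ : Fin s × ((Q : Subgroup G) ⊓ C : Subgroup G) → (Q : Subgroup G) := fun p =>
      ⟨(g ^ (p.1 : ℕ))⁻¹ * p.2, Subgroup.mul_mem _ (Subgroup.inv_mem _ (pow_mem hg _)) p.2.2.1⟩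
    have hψ : Function.Surjective ψ := by
      rintro ⟨h, hh'⟩
      obtain ⟨i, his, hi⟩ := hdec h hh' g hg hgC
      exact ⟨⟨⟨i, his⟩, ⟨_, mul_mem (pow_mem hg _) hh', hi⟩⟩, Subtype.ext (inv_mul_cancel_left _ _)⟩
    have hle := Nat.card_le_card_of_surjective ψ hψ
    rwa [Nat.card_prod, Nat.card_fin] at hle
  have hsq : m.factorization s = 1 := by
    obtain ⟨Q⟩ : Nonempty (Sylow s G) := inferInstance
    obtain ⟨g, hg, hgC⟩ := hC.exists_outside hh hsm Q
    have h1 := hcover Q g hg hgC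
    rw [card_inf_sylow Q C (hNtop ▸ le_top), sylow_card_eq Q, ← pow_succ'] at h1
    have h2 := (Nat.pow_le_pow_iff_right hs.out.one_lt).1 h1
    have h3 := fact_card_mul C s
    rw [hC.index] at h3
    have := hs.out.factorization_pos_of_dvd hh.mpos hsm
    omega
  have hone : (Nat.card C).factorization s = (Nat.card (center G)).factorization s + 1 := by
    obtain ⟨Q₀⟩ : Nonempty (Sylow s G) := inferInstance
    obtain ⟨f, hf, hfC⟩ := hC.exists_outside hh hsm Q₀
    have hfs := isEl_of_mem_pgroup Q₀.isPGroup' hf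
    have hfZ : f ∉ center G := fun h => hfC (hZC h)
    obtain ⟨k, hk⟩ := hfs
    obtain ⟨S, hS⟩ := (pgroup_zpowers (x := (⟨f, self_mem_cz f⟩ : cz f)) (r := s) (k := k)
      (by rw [Subgroup.orderOf_mk]; exact hk)).exists_le_sylow
    set U := (S : Subgroup (cz f)).map (cz f).subtype
    have hfU : f ∈ U := ⟨_, hS (mem_zpowers _), rfl⟩
    have hUcard : Nat.card U = s ^ (Nat.card C).factorization s := by
      obtain ⟨u, huC, hus, huZ⟩ := hC.ex s hs.out hsm
      rw [card_map_of_injective (cz f).subtype_injective, sylow_card_eq S,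
        hh.fact_eq hs.out hsm hfZ huZ, hC.eq s u hs.out hsm hus huC huZ]
    obtain ⟨Q, hQ⟩ := (S.isPGroup'.map (cz f).subtype).exists_le_sylow
    obtain ⟨-, -, -, -, -, -, -, -, -, hdec⟩ := data Q
    have hUC : Nat.card (U ⊓ C : Subgroup G) ≤ s ^ (Nat.card (center G)).factorization s := by
      refine le_fact_of_pgroup ((S.isPGroup'.map _).to_le inf_le_left) fun x hx => ?_
      by_contra hxZ
      exact hfC (hC.cz_eq hh hx.2 hxZ ▸ mem_cz_symm (map_subtype_le _ hx.1))
    let ψ : Fin s × (U ⊓ C : Subgroup G) → U := fun p =>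
      ⟨(f ^ (p.1 : ℕ))⁻¹ * p.2, Subgroup.mul_mem _ (Subgroup.inv_mem _ (pow_mem hfU _)) p.2.2.1⟩
    have hψ : Function.Surjective ψ := by
      rintro ⟨h, hh'⟩
      obtain ⟨i, his, hi⟩ := hdec h (hQ hh') f (hQ hfU) hfC
      exact ⟨⟨⟨i, his⟩, ⟨_, mul_mem (pow_mem hfU _) hh', hi⟩⟩, Subtype.ext (inv_mul_cancel_left _ _)⟩
    have hle := Nat.card_le_card_of_surjective ψ hψ
    rw [Nat.card_prod, Nat.card_fin, hUcard] at hle
    have h1 := hle.trans (Nat.mul_le_mul_left s hUC)
    rw [← pow_succ'] at h1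
    have h2 := (Nat.pow_le_pow_iff_right hs.out.one_lt).1 h1
    obtain ⟨u, huC, hus, huZ⟩ := hC.ex s hs.out hsm
    have h5 := center_fact_lt hZC hus huC huZ
    omega
  refine ⟨hsq, hone, fun Q => ?_⟩
  obtain ⟨t, htQ, f, hfQ, htC, htZ, hfC, htpow, hcom, hdec⟩ := data Q
  set c := f * t * f⁻¹ * t⁻¹ with hc
  set L := zpowers c
  haveI : L.Normal := ⟨fun a ha g => by
    obtain ⟨i, rfl⟩ := mem_zpowers_iff.1 ha
    rw [Subgroup.mem_center_iff.1 (zpow_mem hcom i) g, mul_inv_cancel_right]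
    exact zpow_mem (mem_zpowers c) i⟩
  have hc1 : c ≠ 1 := fun h => hfC (hC.cz_eq hh htC htZ ▸ mem_cz.2 (commute_iff_comm_eq_one.1 h))
  have hcs : c ^ s = 1 := by
    rw [hc, ← comm_pow_right hcom, Subgroup.mem_center_iff.1 htpow f, mul_inv_cancel_right, mul_inv_cancel]
  have hLcard : Nat.card L = s := by
    rw [Nat.card_zpowers]; exact orderOf_eq_prime hcs hc1
  -- `Q ∩ C` is generated by `t` and central elements
  set S := (Q : Subgroup G) ⊓ C
  haveI : (S ⊓ center G).Normal := ⟨fun a ha g => by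
    rw [Subgroup.mem_center_iff.1 ha.2 g, mul_inv_cancel_right]; exact ha⟩
  have htS : t ∈ S := ⟨htQ, htC⟩
  have hgen : zpowers t ⊔ (S ⊓ center G) = S := by
    have hle : zpowers t ⊔ (S ⊓ center G) ≤ S := sup_le (zpowers_le.2 htS) inf_le_left
    have hZS : Nat.card (S ⊓ center G : Subgroup G) = s ^ (Nat.card (center G)).factorization s := by
      have h : part s (center G) ≤ S ⊓ center G := by
        intro a ha
        have haZ := part_le s _ ha
        refine ⟨⟨?_, hZC haZ⟩, haZ⟩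
        obtain ⟨k, hk⟩ := isEl_of_mem_pgroup (part_pgroup s _) ha
        have hT : IsPGroup s (zpowers a ⊔ (Q : Subgroup G) : Subgroup G) :=
          (pgroup_zpowers hk).to_sup_of_normal_right' Q.isPGroup'
            (zpowers_le.2 (centralizer_le_normalizer _
              (mem_centralizer_iff.2 fun b _ => Subgroup.mem_center_iff.1 haZ b)))
        exact (Q.is_maximal' hT le_sup_right) ▸ mem_sup_left (mem_zpowers a)
      rw [← card_part]
      exact congrArg (fun H : Subgroup G => Nat.card H) (eq_of_pgroup_card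
        (Q.isPGroup'.to_le (inf_le_left.trans inf_le_left)) h inf_le_right (card_part s _)).symm
    refine eq_of_le_of_card_ge hle ?_
    rw [card_inf_sylow Q C (hNtop ▸ le_top), hone]
    obtain ⟨j, hj⟩ := IsPGroup.iff_card.mp
      ((Q.isPGroup'.to_le inf_le_left).to_le hle : IsPGroup s (zpowers t ⊔ (S ⊓ center G) : Subgroup G))
    rw [hj]
    refine Nat.pow_le_pow_right hs.out.pos ?_
    by_contra hlt
    have h1 : Nat.card (zpowers t ⊔ (S ⊓ center G) : Subgroup G) ≤ Nat.card (S ⊓ center G : Subgroup G) := by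
      rw [hj, hZS]; exact Nat.pow_le_pow_right hs.out.pos (by omega)
    have h2 := eq_of_le_of_card_ge le_sup_right h1
    exact htZ (h2 ▸ mem_sup_left (mem_zpowers t) : t ∈ S ⊓ center G).2
  set ρ := QuotientGroup.mk' L
  have hft : Commute (ρ f) (ρ t) := by
    rw [commute_iff_eq, ← commute_iff_comm_eq_one, ← map_inv, ← map_inv, ← map_mul, ← map_mul, ← map_mul,
      QuotientGroup.mk'_apply, QuotientGroup.eq_one_iff]
    exact mem_zpowers c
  have hform : ∀ a ∈ (Q : Subgroup G), ∃ (i : ℕ) (j : ℤ) (z : G),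
      z ∈ center G ∧ a = (f ^ i)⁻¹ * (t ^ j * z) := by
    intro a ha
    obtain ⟨i, -, hi⟩ := hdec a ha f hfQ hfC
    have h1 : f ^ i * a ∈ S := ⟨mul_mem (pow_mem hfQ i) ha, hi⟩
    rw [← hgen, mem_sup_of_normal_right] at h1
    obtain ⟨x, hx, z, hz, hxz⟩ := h1
    obtain ⟨j, rfl⟩ := mem_zpowers_iff.1 hx
    exact ⟨i, j, z, hz.2, by rw [hxz, inv_mul_cancel_left]⟩
  have hcommQ : ∀ a ∈ (Q : Subgroup G), ∀ b ∈ (Q : Subgroup G), Commute (ρ a) (ρ b) := by
    intro a ha b hb
    obtain ⟨i, j, z, hz, rfl⟩ := hform a ha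
    obtain ⟨k, l, w, hw, rfl⟩ := hform b hb
    have hzc : ∀ x, Commute (ρ z) x := by
      intro x
      obtain ⟨x, rfl⟩ := QuotientGroup.mk'_surjective L x
      exact (show Commute x z from Subgroup.mem_center_iff.1 hz x).symm.map ρ
    have hwc : ∀ x, Commute (ρ w) x := by
      intro x
      obtain ⟨x, rfl⟩ := QuotientGroup.mk'_surjective L x
      exact (show Commute x w from Subgroup.mem_center_iff.1 hw x).symm.map ρ
    simp only [map_mul, map_inv, map_pow, map_zpow]
    have hff : Commute ((ρ f ^ i)⁻¹) ((ρ f ^ k)⁻¹) := ((Commute.refl _).pow_pow i k).inv_inv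
    have hft' : ∀ (i : ℕ) (l : ℤ), Commute ((ρ f ^ i)⁻¹) (ρ t ^ l) := fun i l =>
      ((hft.pow_left i).inv_left).zpow_right l
    exact ((hff.mul_right ((hft' i l).mul_right (hwc _).symm)).mul_left
      (((hft' k j).symm.mul_right (((Commute.refl _).zpow_zpow j l).mul_right (hwc _).symm)).mul_left
        (hzc _)))
  have hle : (commutator (Q : Subgroup G)).map (Q : Subgroup G).subtype ≤ L := by
    rw [_root_.commutator_def, map_commutator, commutator_le]
    intro a ha b hb
    rw [← QuotientGroup.eq_one_iff, ← QuotientGroup.mk'_apply, map_commutatorElement,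
      commutatorElement_eq_one_iff_mul_comm]
    exact hcommQ a (map_subtype_le _ ha) b (map_subtype_le _ hb)
  have hge : L ≤ (commutator (Q : Subgroup G)).map (Q : Subgroup G).subtype := by
    rw [zpowers_le]
    exact ⟨⁅(⟨f, hfQ⟩ : (Q : Subgroup G)), ⟨t, htQ⟩⁆,
      commutator_mem_commutator (mem_top _) (mem_top _), rfl⟩
  rw [← card_map_of_injective (Q : Subgroup G).subtype_injective, le_antisymm hle hge, hLcard]

theorem Good.prime {C : Subgroup G} (hC : Good G m C) [C.Normal] : m.Prime := by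
  obtain ⟨s, hs, hsm⟩ := Nat.exists_prime_and_dvd hh.hm.ne'
  have honly : ∀ q, q.Prime → q ∣ m → q = s := by
    intro q hq hqm
    by_contra hne
    haveI := Fact.mk hs
    haveI := Fact.mk hq
    have key : ∀ a b : ℕ, a.Prime → a ∣ m → b.Prime → b ∣ m → b ≠ a → a ∣ b - 1 := by
      intro a b ha ham hb hbm hba
      haveI := Fact.mk ha
      haveI := Fact.mk hb
      obtain ⟨Q⟩ : Nonempty (Sylow a G) := inferInstance
      obtain ⟨g, hg, hgC⟩ := hC.exists_outside hh ham Q
      have h := hC.dvd_pow_sub hh ham hba (isEl_of_mem_pgroup Q.isPGroup' hg)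
        (by rw [normalizer_eq_top]; exact mem_top _) hgC
      rwa [(hC.sylow_structure hh hbm).2.1, Nat.add_sub_cancel_left, pow_one] at h
    have h1 := Nat.le_of_dvd (by have := hq.two_le; omega) (key s q hs hsm hq hqm hne)
    have h2 := Nat.le_of_dvd (by have := hs.two_le; omega) (key q s hq hqm hs hsm (Ne.symm hne))
    have := hs.two_le
    omega
  haveI := Fact.mk hs
  have h1 : m = s := by
    apply Nat.eq_of_factorization_eq hh.mpos hs.ne_zero
    intro t
    rw [hs.factorization]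
    by_cases ht : t = s
    · subst ht; rw [Finsupp.single_eq_same, (hC.sylow_structure hh hsm).1]
    · rw [Finsupp.single_eq_of_ne ht]
      by_contra h0
      have ht' := Nat.prime_of_mem_primeFactors (Nat.support_factorization m ▸ Finsupp.mem_support_iff.2 h0)
      exact ht (honly t ht' (Nat.dvd_of_factorization_pos h0))
  exact h1 ▸ hs

theorem Good.dvd_sub_one {C : Subgroup G} (hC : Good G m C) [C.Normal] : m ∣ n - 1 := by
  haveI := Fact.mk (hC.prime hh)
  obtain ⟨Q⟩ : Nonempty (Sylow m G) := inferInstance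
  obtain ⟨g, hg, hgC⟩ := hC.exists_outside hh dvd_rfl Q
  have h : ∀ r ∈ n.primeFactors, r ^ n.factorization r ≡ 1 [MOD m] := by
    intro r hrmem
    obtain ⟨hr, hrn, -⟩ := Nat.mem_primeFactors.1 hrmem
    haveI := Fact.mk hr
    have hrm := hh.not_dvd_m hr hrn
    have h1 := hC.dvd_pow_sub hh dvd_rfl (r := r) (fun e => hrm (e ▸ dvd_rfl))
      (isEl_of_mem_pgroup Q.isPGroup' hg) (by rw [normalizer_eq_top]; exact mem_top _) hgC
    have h2 := fact_card_mul C r
    rw [hC.index, Nat.factorization_eq_zero_of_not_dvd hrm, hC.card_r hh hr hrn, add_zero] at h2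
    rw [← h2, Nat.add_sub_cancel_left] at h1
    exact ((Nat.modEq_iff_dvd' (Nat.one_le_pow _ _ hr.pos)).2 h1).symm
  have h3 : (∏ r ∈ n.primeFactors, r ^ n.factorization r) ≡ ∏ _r ∈ n.primeFactors, 1 [MOD m] :=
    Nat.ModEq.prod h
  rw [Finset.prod_const_one] at h3
  have e : ∏ r ∈ n.primeFactors, r ^ n.factorization r = n := by
    rw [← Nat.prod_factorization_eq_prod_primeFactors]
    exact Nat.prod_factorization_pow_eq_self hh.npos
  rw [e] at h3
  exact (Nat.modEq_iff_dvd' (Nat.one_le_iff_ne_zero.2 hh.npos)).1 h3.symm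

theorem Good.complement {C : Subgroup G} (hC : Good G m C) [hCn : C.Normal] :
    ∃ N : Subgroup G, N.Normal ∧ (Nat.card N).Coprime m ∧ ∃ a : ℕ, N.index = m ^ a := by
  have hp := hC.prime hh
  haveI := Fact.mk hp
  haveI := hC.nil
  have hab := hC.abelian hh
  set d := ordCompl[m] (Nat.card C)
  let K : Subgroup G :=
    { carrier := {x | x ∈ C ∧ x ^ d = 1}
      one_mem' := ⟨one_mem C, one_pow _⟩
      mul_mem' := fun {a b} ha hb => ⟨mul_mem ha.1 hb.1, by
        rw [(show Commute a b from (mem_centralizer_iff.1 (hab hb.1) a ha.1)).mul_pow, ha.2, hb.2, one_mul]⟩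
      inv_mem' := fun {a} ha => ⟨inv_mem ha.1, by rw [inv_pow, ha.2, inv_one]⟩ }
  refine ⟨K, ⟨fun a ha g => ⟨hCn.conj_mem a ha.1 g, by rw [conj_pow, ha.2]; group⟩⟩, ?_,
    K.index.factorization m, ?_⟩
  · refine ((hp.coprime_iff_not_dvd).2 fun hd => ?_).symm
    obtain ⟨x, hx⟩ := exists_prime_orderOf_dvd_card' m hd
    have h1 : orderOf (x : G) ∣ d := orderOf_dvd_of_pow_eq_one x.2.2
    rw [Subgroup.orderOf_coe, hx] at h1
    exact Nat.not_dvd_ordCompl hp Nat.card_pos.ne' h1
  · apply Nat.eq_of_factorization_eq index_ne_zero_of_finite (pow_ne_zero _ hp.ne_zero)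
    intro t
    rw [hp.factorization_pow]
    by_cases ht : t = m
    · subst ht; rw [Finsupp.single_eq_same]
    rw [Finsupp.single_eq_of_ne ht]
    by_cases htp : t.Prime
    · haveI := Fact.mk htp
      have h1 : part t C ≤ K := fun x hx => ⟨part_le t C hx, by
        refine orderOf_dvd_iff_pow_eq_one.1 ?_
        obtain ⟨k, hk⟩ := isEl_of_mem_pgroup (part_pgroup t C) hx
        have h2 : orderOf x ∣ Nat.card C := by
          rw [← Nat.card_zpowers]; exact card_dvd_of_le (zpowers_le.2 (part_le t C hx))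
        rw [← Nat.ordProj_mul_ordCompl_eq_self (Nat.card C) m] at h2
        refine (Nat.Coprime.dvd_of_dvd_mul_left ?_ h2)
        rw [hk]
        exact Nat.Coprime.pow k _ ((Nat.coprime_primes htp hp).2 ht)⟩
      have h2 := le_fact_of_pgroup (part_pgroup t C) h1
      rw [card_part] at h2
      have h3 := (Nat.pow_le_pow_iff_right htp.one_lt).1 h2
      have h4 := fact_card_mul K t
      have h5 := fact_card_mul C t
      rw [hC.index, Nat.factorization_eq_zero_of_not_dvd
        (fun hd => ht ((Nat.prime_dvd_prime_iff_eq htp hp).1 hd))] at h5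
      omega
    · exact Nat.factorization_eq_zero_of_not_prime _ htp

end Cfsg.Agent.FGS4.ThreeSizes
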