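import Cfsg.Agent.FGS4.ThreeSizes.Rank

/-! # How a Sylow subgroup for `s ∣ m` meets a nilpotent centralizer of index `m` -/

set_option linter.style.haveILetI false

namespace Cfsg.Agent.FGS4.ThreeSizes

open Subgroup

variable {G : Type*} [Group G] [Finite G]

theorem fact_eq_zero_of_pgroup {s r : ℕ} [hs : Fact s.Prime] {H : Subgroup G} (hH : IsPGroup s H)
    (hrs : r ≠ s) : (Nat.card H).factorization r = 0 := by
  obtain ⟨j, hj⟩ := IsPGroup.iff_card.mp hH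
  rw [hj, hs.out.factorization_pow, Finsupp.single_eq_of_ne hrs]

/-- A Sylow subgroup normalizing `H` meets it in a Sylow subgroup. -/
theorem card_inf_sylow {s : ℕ} [hs : Fact s.Prime] (Q : Sylow s G) (H : Subgroup G)
    (hQ : (Q : Subgroup G) ≤ normalizer (H : Set G)) :
    Nat.card ((Q : Subgroup G) ⊓ H : Subgroup G) = s ^ (Nat.card H).factorization s := by
  set N := normalizer (H : Set G)
  set Q' : Sylow s N := Q.subtype hQ
  set H' := H.subgroupOf N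
  haveI : H'.Normal := normal_in_normalizer
  have h1 := relIndex_sup_right (H := (Q' : Subgroup N)) (K := H')
  have hH'card : Nat.card H' = Nat.card H := Nat.card_congr (subgroupOfEquivOfLe le_normalizer).toEquiv
  have hI : Nat.card ((Q' : Subgroup N) ⊓ H' : Subgroup N) = Nat.card ((Q : Subgroup G) ⊓ H : Subgroup G) := by
    refine (Nat.card_congr (Equiv.cast ?_)).trans
      (Nat.card_congr (subgroupOfEquivOfLe (inf_le_left.trans hQ : (Q : Subgroup G) ⊓ H ≤ N)).toEquiv)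
    rfl
  -- `|Q ⊔ H| * |Q ⊓ H| = |Q| * |H|`
  have e1 : H'.relIndex ((Q' : Subgroup N) ⊔ H') * Nat.card H' = Nat.card ((Q' : Subgroup N) ⊔ H' : Subgroup N) := by
    rw [mul_comm, ← Nat.card_congr (subgroupOfEquivOfLe (le_sup_right : H' ≤ (Q' : Subgroup N) ⊔ H')).toEquiv]
    exact card_mul_index _
  have e2 : H'.relIndex (Q' : Subgroup N) * Nat.card ((Q' : Subgroup N) ⊓ H' : Subgroup N) =
      Nat.card (Q' : Subgroup N) := by
    rw [mul_comm, ← Nat.card_congr (subgroupOfEquivOfLe (inf_le_left : (Q' : Subgroup N) ⊓ H' ≤ _)).toEquiv,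
      ← inf_relIndex_left]
    exact card_mul_index _
  have hd : Nat.card ((Q' : Subgroup N) ⊔ H' : Subgroup N) ∣ Nat.card N := card_subgroup_dvd_card _
  obtain ⟨a, ha⟩ : ∃ a, Nat.card ((Q : Subgroup G) ⊓ H : Subgroup G) = s ^ a :=
    IsPGroup.iff_card.mp (Q.isPGroup'.to_le inf_le_left)
  rw [ha]
  congr 1
  apply le_antisymm
  · exact (Nat.Prime.pow_dvd_iff_le_factorization hs.out Nat.card_pos.ne').1
      (ha ▸ card_dvd_of_le inf_le_right)
  · rw [← e1, h1, hH'card] at hd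
    have hrel : H'.relIndex (Q' : Subgroup N) ≠ 0 := index_ne_zero_of_finite
    have h2 := (Nat.factorization_le_iff_dvd (Nat.mul_ne_zero hrel Nat.card_pos.ne') Nat.card_pos.ne').2 hd s
    rw [Nat.factorization_mul hrel Nat.card_pos.ne', Finsupp.add_apply] at h2
    have hQc : (Nat.card (Q' : Subgroup N)).factorization s = (Nat.card N).factorization s := by
      rw [sylow_card_eq Q', hs.out.factorization_pow, Finsupp.single_eq_same]
    have hIc : (Nat.card ((Q' : Subgroup N) ⊓ H' : Subgroup N)).factorization s = a := by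
      rw [hI, ha, hs.out.factorization_pow, Finsupp.single_eq_same]
    rw [← e2, Nat.factorization_mul hrel Nat.card_pos.ne', Finsupp.add_apply, hIc] at hQc
    omega

omit [Finite G] in
theorem comm_mul_left_mem {g h t : G} (hh : h * t * h⁻¹ * t⁻¹ ∈ center G) :
    (g * h) * t * (g * h)⁻¹ * t⁻¹ = (g * t * g⁻¹ * t⁻¹) * (h * t * h⁻¹ * t⁻¹) := by
  set c := h * t * h⁻¹ * t⁻¹ with hc
  have e : h * t * h⁻¹ = c * t := by rw [hc]; group
  have hcc := Subgroup.mem_center_iff.1 hh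
  calc g * h * t * (g * h)⁻¹ * t⁻¹ = g * (h * t * h⁻¹) * g⁻¹ * t⁻¹ := by group
    _ = (g * c * g⁻¹) * (g * t * g⁻¹ * t⁻¹) := by rw [e]; group
    _ = c * (g * t * g⁻¹ * t⁻¹) := by rw [hcc g, mul_inv_cancel_right]
    _ = (g * t * g⁻¹ * t⁻¹) * c := (hcc _).symm

omit [Finite G] in
theorem comm_pow_right {g t : G} (hh : g * t * g⁻¹ * t⁻¹ ∈ center G) (k : ℕ) :
    g * t ^ k * g⁻¹ * (t ^ k)⁻¹ = (g * t * g⁻¹ * t⁻¹) ^ k := by
  set c := g * t * g⁻¹ * t⁻¹ with hc
  have e : g * t * g⁻¹ = c * t := by rw [hc]; group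
  have h1 : g * t ^ k * g⁻¹ = c ^ k * t ^ k := by
    rw [← conj_pow, e, (show Commute c t from (Subgroup.mem_center_iff.1 hh t).symm).mul_pow]
  rw [h1, mul_inv_cancel_right]

omit [Finite G] in
theorem comm_pow_left {g t : G} (hh : g * t * g⁻¹ * t⁻¹ ∈ center G) (k : ℕ) :
    g ^ k * t * (g ^ k)⁻¹ * t⁻¹ = (g * t * g⁻¹ * t⁻¹) ^ k := by
  induction k with
  | zero => simp
  | succ k ih => rw [pow_succ, comm_mul_left_mem hh, ih, pow_succ]

omit [Finite G] in
theorem commute_iff_comm_eq_one {g t : G} : g * t * g⁻¹ * t⁻¹ = 1 ↔ g * t = t * g := by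
  rw [mul_inv_eq_one, mul_inv_eq_iff_eq_mul]

omit [Finite G] in
theorem comm_commutator {g h t : G} (hg : g * t * g⁻¹ * t⁻¹ ∈ center G) (hh : h * t * h⁻¹ * t⁻¹ ∈ center G) :
    (g * h * g⁻¹ * h⁻¹) * t = t * (g * h * g⁻¹ * h⁻¹) := by
  have e1 : (g * h) * t * (g * h)⁻¹ = (h * g) * t * (h * g)⁻¹ := by
    refine mul_right_cancel (b := t⁻¹) ?_
    rw [comm_mul_left_mem hh, comm_mul_left_mem hg]
    exact (Subgroup.mem_center_iff.1 hh _)
  calc g * h * g⁻¹ * h⁻¹ * t = (g * h) * ((h * g)⁻¹ * t * (h * g)) * (h * g)⁻¹ := by group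
    _ = (g * h) * ((h * g)⁻¹ * t * (h * g)) * (g * h)⁻¹ * ((g * h) * (h * g)⁻¹) := by group
    _ = ((g * h) * ((h * g)⁻¹ * t * (h * g)) * (g * h)⁻¹) * (g * h * g⁻¹ * h⁻¹) := by group
    _ = t * (g * h * g⁻¹ * h⁻¹) := by
      congr 1
      have e2 : (g * h) * ((h * g)⁻¹ * t * (h * g)) * (g * h)⁻¹ =
          (g * h) * (h * g)⁻¹ * t * ((g * h) * (h * g)⁻¹)⁻¹ := by group
      -- both products move `t` by the same central element
      set z := (h * g) * t * (h * g)⁻¹ * t⁻¹ with hz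
      have hzc : z ∈ center G := by rw [hz, comm_mul_left_mem hg]; exact mul_mem hh hg
      have hzz := Subgroup.mem_center_iff.1 hzc
      have hback : (h * g)⁻¹ * t * (h * g) = z⁻¹ * t := by
        have e : (h * g) * t * (h * g)⁻¹ = z * t := by rw [hz]; group
        calc (h * g)⁻¹ * t * (h * g) = (h * g)⁻¹ * (z⁻¹ * (z * t)) * (h * g) := by group
          _ = (h * g)⁻¹ * (z⁻¹ * ((h * g) * t * (h * g)⁻¹)) * (h * g) := by rw [e]
          _ = ((h * g)⁻¹ * z⁻¹ * (h * g)) * t := by group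
          _ = z⁻¹ * t := by
            rw [mul_assoc ((h * g)⁻¹), ← Subgroup.mem_center_iff.1 (inv_mem hzc) (h * g), inv_mul_cancel_left]
      rw [hback]
      calc (g * h) * (z⁻¹ * t) * (g * h)⁻¹ = ((g * h) * z⁻¹ * (g * h)⁻¹) * ((g * h) * t * (g * h)⁻¹) := by group
        _ = z⁻¹ * ((h * g) * t * (h * g)⁻¹) := by
          rw [Subgroup.mem_center_iff.1 (inv_mem hzc) (g * h), mul_inv_cancel_right, e1]
        _ = t := by rw [hz]; group

variable {m n : ℕ}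

/-- A centralizer of index `m` whose `s`-elements for `s ∣ m` all have it as centralizer. -/
structure Good (G : Type*) [Group G] (m : ℕ) (C : Subgroup G) : Prop where
  index : C.index = m
  nil : Group.IsNilpotent C
  eq : ∀ s t, s.Prime → s ∣ m → IsEl s t → t ∈ C → t ∉ center G → cz t = C
  ex : ∀ s, s.Prime → s ∣ m → ∃ t ∈ C, IsEl s t ∧ t ∉ center G

theorem Good.center_le {C : Subgroup G} (hC : Good G m C) (hm : 1 < m) : center G ≤ C := by
  obtain ⟨s, hs, hsm⟩ := Nat.exists_prime_and_dvd hm.ne'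
  obtain ⟨t, ht, hte, htZ⟩ := hC.ex s hs hsm
  rw [← hC.eq s t hs hsm hte ht htZ]
  exact center_le_cz t

theorem Good.commute {C : Subgroup G} (hC : Good G m C) {s : ℕ} (hs : s.Prime) (hsm : s ∣ m) {t c : G}
    (ht : IsEl s t) (htC : t ∈ C) (hc : c ∈ C) : t * c = c * t := by
  by_cases htZ : t ∈ center G
  · exact (Subgroup.mem_center_iff.1 htZ c).symm
  · exact (mem_cz.1 (by rw [hC.eq s t hs hsm ht htC htZ]; exact hc : c ∈ cz t)).symm

theorem shape (hh : Hyp G m n) {C : Subgroup G} (hC : Good G m C) {s : ℕ} [hs : Fact s.Prime]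
    (hsm : s ∣ m) (Q : Sylow s G) (hSQ : part s C ≤ (Q : Subgroup G)) :
    (Q : Subgroup G) ≤ normalizer (C : Set G) ∨
      ((∃ g ∈ (Q : Subgroup G), g ∈ normalizer (C : Set G) ∧ g ∉ C) ∧
        Nat.card (Q : Subgroup G) ≤ s * Nat.card ((Q : Subgroup G) ⊓ normalizer (C : Set G) : Subgroup G) ∧
        ∃ e, IsEl s e ∧ e ∉ center G ∧
          ∀ r : ℕ, r.Prime → r ≠ s → ∀ y ∈ cz e, IsEl r y → y ∈ center G) := by
  classical
  haveI := hC.nil
  set Q₀ := (Q : Subgroup G) with hQ₀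
  set S := part s C with hS
  have hmem : ∀ x, x ∈ Q₀ → x ∈ C → x ∈ S := fun x hx hxC => mem_part (isEl_of_mem_pgroup Q.isPGroup' hx) hxC
  have hSC : S ≤ C := part_le s C
  have hnorm : ∀ g t, t ∈ C → IsEl s t → t ∉ center G → g * t * g⁻¹ * t⁻¹ ∈ center G →
      g ∈ normalizer (C : Set G) := by
    intro g t htC hte htZ hg
    rw [← hC.eq s t hs.out hsm hte htC htZ]
    exact mem_normalizer_cz hg
  by_cases hA : ∃ t ∈ S, t ∉ center G ∧ ∀ g ∈ Q₀, g * t * g⁻¹ * t⁻¹ ∈ center G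
  · obtain ⟨t, ht, htZ, hg⟩ := hA
    exact Or.inl fun g hgQ => hnorm g t (hSC ht) (mem_part_iff.1 ht).2 htZ (hg g hgQ)
  push Not at hA
  set π := QuotientGroup.mk' (center G) with hπ
  have hπ1 : ∀ x, π x = 1 ↔ x ∈ center G := fun x => QuotientGroup.eq_one_iff x
  have hcz : ∀ g t, π g * π t = π t * π g ↔ g * t * g⁻¹ * t⁻¹ ∈ center G := fun g t => by
    rw [← hπ1, map_mul, map_mul, map_mul, map_inv, map_inv, mul_inv_eq_one, mul_inv_eq_iff_eq_mul]
  set Qb := Q₀.map π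
  have hQbp : IsPGroup s Qb := Q.isPGroup'.map π
  obtain ⟨t₀, ht₀C, ht₀e, ht₀Z⟩ := hC.ex s hs.out hsm
  have ht₀Q : t₀ ∈ Q₀ := hSQ (mem_part ht₀e ht₀C)
  haveI : Nontrivial Qb :=
    ⟨⟨⟨π t₀, t₀, ht₀Q, rfl⟩, 1, fun e => ht₀Z ((hπ1 t₀).1 (congrArg Subtype.val e))⟩⟩
  haveI := hQbp.center_nontrivial
  obtain ⟨c, hc⟩ : ∃ c : center Qb, orderOf c = s := by
    obtain ⟨j, hj⟩ := IsPGroup.iff_card.mp (hQbp.to_subgroup (center Qb))
    refine exists_prime_orderOf_dvd_card' s ?_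
    rw [hj]
    refine dvd_pow_self s fun h0 => ?_
    rw [h0, pow_zero] at hj
    exact (Finite.one_lt_card (α := center Qb)).ne' hj
  obtain ⟨e, heQ, hec⟩ := (c : Qb).2
  have heZ : e ∉ center G := fun h => by
    have : c = 1 := Subtype.ext (Subtype.ext (hec.symm.trans ((hπ1 e).2 h)))
    rw [this, orderOf_one] at hc
    exact hs.out.ne_one hc.symm
  have hes : IsEl s e := isEl_of_mem_pgroup Q.isPGroup' heQ
  have heQc : ∀ g ∈ Q₀, g * e * g⁻¹ * e⁻¹ ∈ center G := fun g hg => by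
    rw [← hcz, hec]
    exact congrArg Subtype.val (Subgroup.mem_center_iff.1 c.2 ⟨π g, g, hg, rfl⟩)
  have hepow : e ^ s ∈ center G := by
    rw [← hπ1, map_pow, hec, ← SubmonoidClass.coe_pow, ← SubmonoidClass.coe_pow, ← hc, pow_orderOf_eq_one]
    rfl
  have heC : e ∉ C := fun h => by
    obtain ⟨g, hg, hgn⟩ := hA e (hmem e heQ h) heZ
    exact hgn (heQc g hg)
  have hQN : Q₀ ≤ normalizer (cz e : Set G) := fun g hg => mem_normalizer_cz (heQc g hg)
  set E := Q₀ ⊓ cz e with hE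
  have hEcard : Nat.card E = Nat.card S := by
    rw [hE, hQ₀, card_inf_sylow Q _ hQN, hS, card_part, hh.fact_eq hs.out hsm heZ ht₀Z,
      hC.eq s t₀ hs.out hsm ht₀e ht₀C ht₀Z]
  -- powers and commutators lie in `E`
  have hQpow : ∀ g ∈ Q₀, g ^ s ∈ cz e := by
    intro g hg
    have hz := heQc g hg
    rw [mem_cz, ← commute_iff_comm_eq_one, comm_pow_left hz, ← comm_pow_right hz]
    rw [Subgroup.mem_center_iff.1 hepow g, mul_inv_cancel_right, mul_inv_cancel]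
  have hQcomm : ∀ g ∈ Q₀, ∀ h ∈ Q₀, g * h * g⁻¹ * h⁻¹ ∈ cz e := fun g hg h hh' =>
    mem_cz.2 (comm_commutator (heQc g hg) (heQc h hh'))
  -- `S` meets `E` in the centre
  have hSE : ∀ x ∈ S, x ∈ cz e → x ∈ center G := by
    intro x hx hxe
    by_contra hxZ
    have : e ∈ cz x := mem_cz_symm hxe
    rw [hC.eq s x hs.out hsm (mem_part_iff.1 hx).2 (hSC hx) hxZ] at this
    exact heC this
  have heN : e ∈ normalizer (C : Set G) := by
    refine hnorm e t₀ ht₀C ht₀e ht₀Z ?_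
    have := inv_mem (heQc t₀ ht₀Q)
    simpa [mul_assoc] using this
  have hNS : ∀ g ∈ Q₀, g ∈ normalizer (C : Set G) → ∀ t ∈ S, g * t * g⁻¹ * t⁻¹ ∈ center G := by
    intro g hg hgN t ht
    refine hSE _ ?_ (hQcomm g hg t (hSQ ht))
    exact mul_mem ((mem_normalizer_iff.1 (normalizer_le_normalizer_part hgN) t).1 ht) (inv_mem ht)
  have hSN : ∀ g ∈ Q₀, ∀ t ∈ S, t ∉ center G → g * t * g⁻¹ * t⁻¹ ∈ center G → g ∈ normalizer (C : Set G) :=
    fun g _ t ht htZ h => hnorm g t (hSC ht) (mem_part_iff.1 ht).2 htZ h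
  have hSpow : ∀ t ∈ S, t ^ s ∈ center G := fun t ht => hSE _ (pow_mem ht s) (hQpow t (hSQ ht))
  have hNpow : ∀ g ∈ Q₀, g ∈ normalizer (C : Set G) → g ^ s ∈ C := by
    intro g hg hgN
    have hz := hNS g hg hgN t₀ (mem_part ht₀e ht₀C)
    rw [← hC.eq s t₀ hs.out hsm ht₀e ht₀C ht₀Z, mem_cz, ← commute_iff_comm_eq_one, comm_pow_left hz,
      ← comm_pow_right hz, Subgroup.mem_center_iff.1 (hSpow t₀ (mem_part ht₀e ht₀C)) g, mul_inv_cancel_right,
      mul_inv_cancel]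
  have hNcomm : ∀ g ∈ Q₀ ⊓ normalizer (C : Set G), ∀ h ∈ Q₀ ⊓ normalizer (C : Set G),
      g * h * g⁻¹ * h⁻¹ ∈ C := by
    intro g hg h hh'
    rw [← hC.eq s t₀ hs.out hsm ht₀e ht₀C ht₀Z, mem_cz]
    exact comm_commutator (hNS g hg.1 hg.2 t₀ (mem_part ht₀e ht₀C)) (hNS h hh'.1 hh'.2 t₀ (mem_part ht₀e ht₀C))
  -- a noncentral element of `C` of order prime to `m`
  obtain ⟨r, hr, hrn⟩ := Nat.exists_prime_and_dvd hh.hn.ne'
  haveI := Fact.mk hr
  have hrm : ¬ r ∣ m := hh.not_dvd_m hr hrn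
  have hrs : r ≠ s := fun h => hrm (h ▸ hsm)
  obtain ⟨y, hy, hyr, hyZ⟩ : ∃ y ∈ C, IsEl r y ∧ y ∉ center G := by
    apply exists_noncentral_of_lt
    have h1 : (Nat.card C).factorization r = (Nat.card G).factorization r := by
      rw [fact_card_mul C r, hC.index, Nat.factorization_eq_zero_of_not_dvd hrm, add_zero]
    obtain ⟨w, hw⟩ := hh.exmn
    have h3 := fact_le_of_le (center_le_cz w) r
    have h4 := fact_card_mul (cz w) r
    rw [hw, Nat.factorization_mul hh.mpos hh.npos] at h4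
    change _ = _ + (m.factorization r + n.factorization r) at h4
    have h5 := hr.factorization_pos_of_dvd hh.npos hrn
    omega
  have hNeq : ∀ g ∈ Q₀, g ∈ normalizer (C : Set G) → ∃ i : ℕ, e ^ i * g ∈ C := by
    intro g hg hgN
    have hCu := hC.eq s t₀ hs.out hsm ht₀e ht₀C ht₀Z
    have := hh.no_two hrs hsm (u := t₀) ht₀e ht₀Z (y := y) (by rwa [hCu]) hyr hyZ
      (T := Q₀ ⊓ normalizer (C : Set G)) (Q.isPGroup'.to_le inf_le_left) (by rw [hCu]; exact inf_le_right)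
      (fun g hg => by rw [hCu]; exact hNpow g hg.1 hg.2)
      (fun g hg h hh' => by rw [hCu]; exact hNcomm g hg h hh')
      (g := e) (h := g) ⟨heQ, heN⟩ ⟨hg, hgN⟩ (by rwa [hCu])
    rwa [hCu] at this
  -- `E = Z ⟨e⟩`
  set M := zpowers (π e) with hM
  have hEN : ∀ x ∈ E, x ∈ normalizer (C : Set G) → π x ∈ M := by
    intro x hx hxN
    obtain ⟨i, hi⟩ := hNeq x hx.1 hxN
    have h1 : e ^ i * x ∈ center G :=
      hSE _ (hmem _ (mul_mem (pow_mem heQ i) hx.1) hi) (mul_mem (pow_mem (self_mem_cz e) i) hx.2)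
    have h2 := (hπ1 _).2 h1
    rw [map_mul, map_pow] at h2
    rw [eq_inv_of_mul_eq_one_right h2]
    exact inv_mem (pow_mem (mem_zpowers _) i)
  have hMle : M ≤ Qb := zpowers_le.2 ⟨e, heQ, rfl⟩
  have hMcard : Nat.card M = s := by
    rw [hM, Nat.card_zpowers, hec, Subgroup.orderOf_coe, Subgroup.orderOf_coe, hc]
  have hMc : ∀ w ∈ Qb, ∀ x ∈ M, w * x = x * w := by
    rintro _ ⟨g, hg, rfl⟩ x hx
    obtain ⟨i, rfl⟩ := mem_zpowers_iff.1 hx
    exact (show Commute (π g) (π e) from (hcz g e).2 (heQc g hg)).zpow_right i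
  have hker : ∀ T : Subgroup G, (π.subgroupMap T).ker = (center G).subgroupOf T := fun T => by
    ext x
    rw [mem_subgroupOf, MonoidHom.mem_ker, ← hπ1, Subtype.ext_iff]; rfl
  have hcardS : Nat.card (S.map π) * Nat.card ((center G).subgroupOf S) = Nat.card S := by
    rw [mul_comm, ← (π.subgroupMap S).ker.card_mul_index, Subgroup.index_ker,
      MonoidHom.range_eq_top.2 (π.subgroupMap_surjective S), card_top, hker]
  have hcardE : Nat.card (E.map π) * Nat.card ((center G).subgroupOf E) = Nat.card E := by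
    rw [mul_comm, ← (π.subgroupMap E).ker.card_mul_index, Subgroup.index_ker,
      MonoidHom.range_eq_top.2 (π.subgroupMap_surjective E), card_top, hker]
  have hZsame : Nat.card ((center G).subgroupOf S) = Nat.card ((center G).subgroupOf E) := by
    refine Nat.card_congr ?_
    exact
      { toFun := fun x => ⟨⟨(x : S), hSQ x.1.2, center_le_cz e x.2⟩, x.2⟩
        invFun := fun x => ⟨⟨(x : E), hmem _ x.1.2.1 (hC.center_le hh.hm x.2)⟩, x.2⟩
        left_inv := fun _ => rfl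
        right_inv := fun _ => rfl }
  have hSb : Nat.card (S.map π) = Nat.card (E.map π) := by
    apply Nat.eq_of_mul_eq_mul_right (Nat.card_pos (α := (center G).subgroupOf S))
    rw [hcardS, hZsame, hcardE, hEcard]
  have hEle : ∀ x ∈ E, π x ∈ M := by
    by_contra hnot
    push Not at hnot
    obtain ⟨x₀, hx₀, hx₀M⟩ := hnot
    -- the centre of `Qb / M` meets the image of `E`
    haveI : (M.subgroupOf Qb).Normal := ⟨fun a ha b => by
      rw [mem_subgroupOf] at ha ⊢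
      rw [coe_mul, coe_mul, hMc b b.2 a ha, Subgroup.coe_inv, mul_inv_cancel_right]
      exact ha⟩
    set ρ := QuotientGroup.mk' (M.subgroupOf Qb)
    set Eb := ((E.map π).subgroupOf Qb).map ρ
    haveI : ((E.map π).subgroupOf Qb).Normal := ⟨fun a ha b => by
      rw [mem_subgroupOf] at ha ⊢
      obtain ⟨w, hw, hwa⟩ := ha
      obtain ⟨g, hg, hgb⟩ := b.2
      refine ⟨g * w * g⁻¹, ⟨Q₀.mul_mem (Q₀.mul_mem hg hw.1) (Q₀.inv_mem hg),
        (mem_normalizer_iff.1 (hQN hg) w).1 hw.2⟩, ?_⟩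
      rw [map_mul, map_mul, map_inv, hwa, hgb]; rfl⟩
    haveI : Eb.Normal := (inferInstance : ((E.map π).subgroupOf Qb).Normal).map ρ (QuotientGroup.mk'_surjective _)
    have hne : Eb ≠ ⊥ := fun h => hx₀M (by
      have h1 : ρ ⟨π x₀, x₀, hx₀.1, rfl⟩ ∈ Eb := mem_map_of_mem ρ (by rw [mem_subgroupOf]; exact ⟨x₀, hx₀, rfl⟩)
      rw [h, mem_bot, QuotientGroup.mk'_apply, QuotientGroup.eq_one_iff, mem_subgroupOf] at h1
      exact h1)
    haveI : Group.IsNilpotent (Qb ⧸ M.subgroupOf Qb) := (hQbp.to_quotient _).isNilpotent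
    obtain ⟨w, hwE, hw1, hwc⟩ := OddLocal.exists_ne_one_mem_center_of_normal Eb hne
    obtain ⟨⟨fb, hfQ⟩, hfE, rfl⟩ := hwE
    obtain ⟨f, hf, rfl⟩ := mem_subgroupOf.1 hfE
    have hfM : π f ∉ M := fun h => hw1 ((QuotientGroup.eq_one_iff _).2 (mem_subgroupOf.2 h))
    -- `t ↦ [f, t]` embeds the image of `S` in `M`
    have hψ : ∀ t ∈ S, π f * π t * (π f)⁻¹ * (π t)⁻¹ ∈ M := by
      intro t ht
      have h1 := (Subgroup.mem_center_iff.1 hwc (ρ ⟨π t, t, hSQ ht, rfl⟩)).symm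
      rw [← commutatorElement_eq_one_iff_mul_comm, ← map_commutatorElement, QuotientGroup.mk'_apply,
        QuotientGroup.eq_one_iff, mem_subgroupOf, commutatorElement_def] at h1
      exact h1
    have hinj : Function.Injective fun tb : S.map π =>
        (⟨π f * (tb : G ⧸ center G) * (π f)⁻¹ * (tb : G ⧸ center G)⁻¹, by
          obtain ⟨t, ht, htb⟩ := tb.2
          rw [← htb]; exact hψ t ht⟩ : M) := by
      rintro ⟨_, a, ha, rfl⟩ ⟨_, b, hb, rfl⟩ h
      have h' : π f * π a * (π f)⁻¹ * (π a)⁻¹ = π f * π b * (π f)⁻¹ * (π b)⁻¹ := congrArg Subtype.val h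
      by_contra hne'
      have habZ : a⁻¹ * b ∉ center G := fun hc' =>
        hne' (Subtype.ext (QuotientGroup.eq.2 hc'))
      refine hfM (hEN f hf (hSN f hf.1 (a⁻¹ * b) (mul_mem (inv_mem ha) hb) habZ ?_))
      rw [← hcz, map_mul, map_inv]
      calc π f * ((π a)⁻¹ * π b) = (π a)⁻¹ * (π f * π a * (π f)⁻¹ * (π a)⁻¹)⁻¹ *
            (π f * π b * (π f)⁻¹ * (π b)⁻¹) * π b * π f := by group
        _ = (π a)⁻¹ * π b * π f := by rw [← h']; group
    have hle := Nat.card_le_card_of_injective _ hinj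
    rw [hMcard, hSb] at hle
    have hEM : M ≤ E.map π := zpowers_le.2 ⟨e, ⟨heQ, self_mem_cz e⟩, rfl⟩
    have := eq_of_le_of_card_ge hEM (hMcard.symm ▸ hle)
    exact hfM (this ▸ mem_map_of_mem π hf)
  -- `N(C) ∩ Q` has index at most `s`
  set R := Q₀ ⊓ normalizer (C : Set G)
  have hidx : Nat.card Q₀ ≤ s * Nat.card R := by
    have ht₀S : t₀ ∈ S := mem_part ht₀e ht₀C
    have hval : ∀ g : Q₀, π (g : G) * π t₀ * (π (g : G))⁻¹ * (π t₀)⁻¹ ∈ M := by
      intro g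
      have h1 := hEle _ (⟨Q₀.mul_mem (Q₀.mul_mem (Q₀.mul_mem g.2 ht₀Q) (Q₀.inv_mem g.2)) (Q₀.inv_mem ht₀Q),
        hQcomm _ g.2 _ ht₀Q⟩ : (g : G) * t₀ * (g : G)⁻¹ * t₀⁻¹ ∈ E)
      rwa [map_mul, map_mul, map_mul, map_inv, map_inv] at h1
    let ψ : Q₀ ⧸ R.subgroupOf Q₀ → M := Quotient.lift (fun g => ⟨_, hval g⟩) (by
      intro a b h
      have h1 : a⁻¹ * b ∈ R.subgroupOf Q₀ := QuotientGroup.leftRel_apply.1 h
      have h3 : (a : G)⁻¹ * b ∈ R := mem_subgroupOf.1 h1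
      have h4 := (hcz _ _).2 (hNS _ h3.1 h3.2 t₀ ht₀S)
      rw [map_mul, map_inv] at h4
      refine Subtype.ext ?_
      show π (a : G) * π t₀ * (π (a : G))⁻¹ * (π t₀)⁻¹ = π (b : G) * π t₀ * (π (b : G))⁻¹ * (π t₀)⁻¹
      calc π (a : G) * π t₀ * (π (a : G))⁻¹ * (π t₀)⁻¹
          = π (a : G) * (π t₀ * ((π (a : G))⁻¹ * π (b : G))) * (π (b : G))⁻¹ * (π t₀)⁻¹ := by group
        _ = π (a : G) * (((π (a : G))⁻¹ * π (b : G)) * π t₀) * (π (b : G))⁻¹ * (π t₀)⁻¹ := by rw [h4]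
        _ = π (b : G) * π t₀ * (π (b : G))⁻¹ * (π t₀)⁻¹ := by group)
    have hψinj : Function.Injective ψ := by
      intro a b
      induction a using QuotientGroup.induction_on with | _ a => ?_
      induction b using QuotientGroup.induction_on with | _ b => ?_
      intro h
      have h' : π (a : G) * π t₀ * (π (a : G))⁻¹ * (π t₀)⁻¹ = π (b : G) * π t₀ * (π (b : G))⁻¹ * (π t₀)⁻¹ :=
        congrArg Subtype.val h
      rw [QuotientGroup.eq, mem_subgroupOf]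
      refine ⟨Q₀.mul_mem (Q₀.inv_mem a.2) b.2, hSN _ (Q₀.mul_mem (Q₀.inv_mem a.2) b.2) t₀ ht₀S ht₀Z ?_⟩
      rw [← hcz, coe_mul, Subgroup.coe_inv, map_mul, map_inv]
      calc (π (a : G))⁻¹ * π (b : G) * π t₀
          = (π (a : G))⁻¹ * (π (b : G) * π t₀ * (π (b : G))⁻¹ * (π t₀)⁻¹) * π t₀ * π (b : G) := by group
        _ = π t₀ * ((π (a : G))⁻¹ * π (b : G)) := by rw [← h']; group
    have h1 := Nat.card_le_card_of_injective _ hψinj
    rw [hMcard, ← index_eq_card] at h1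
    rw [← (R.subgroupOf Q₀).card_mul_index, Nat.card_congr (subgroupOfEquivOfLe (inf_le_left : R ≤ Q₀)).toEquiv,
      mul_comm]
    exact Nat.mul_le_mul_right _ h1
  by_cases hall : Q₀ ≤ normalizer (C : Set G)
  · exact Or.inl hall
  refine Or.inr ⟨⟨e, heQ, heN, heC⟩, hidx, e, hes, heZ, ?_⟩
  intro r' hr' hr's y' hy' hy'r
  haveI := Fact.mk hr'
  by_contra hy'Z
  obtain ⟨g, hg, hgN⟩ := SetLike.not_le_iff_exists.1 hall
  have hgcz : g ∉ cz e := fun h => hgN (by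
    obtain ⟨j, hj⟩ := mem_zpowers_iff.1 (hEle g ⟨hg, h⟩)
    have h1 : g * (e ^ j)⁻¹ ∈ center G := by
      rw [← hπ1, map_mul, map_inv, map_zpow, hj, mul_inv_cancel]
    have h2 : g = g * (e ^ j)⁻¹ * e ^ j := by group
    rw [h2]
    exact mul_mem (le_normalizer (hC.center_le hh.hm h1)) (zpow_mem heN j))
  obtain ⟨i, hi⟩ := hh.no_two (r := r') hr's hsm (u := e) hes heZ hy' hy'r hy'Z (T := Q₀) Q.isPGroup' hQN
    hQpow hQcomm (g := t₀) (h := g) ht₀Q hg (fun h => ht₀Z (hSE t₀ (mem_part ht₀e ht₀C) h))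
  apply hgN
  obtain ⟨j, hj⟩ := mem_zpowers_iff.1 (hEle _ ⟨mul_mem (pow_mem ht₀Q i) hg, hi⟩)
  have h1 : (e ^ j)⁻¹ * (t₀ ^ i * g) ∈ center G := by
    rw [← hπ1, map_mul, map_inv, map_zpow, hj, inv_mul_cancel]
  have h2 : g = (t₀ ^ i)⁻¹ * (e ^ j * ((e ^ j)⁻¹ * (t₀ ^ i * g))) := by group
  rw [h2]
  exact mul_mem (inv_mem (pow_mem (le_normalizer ht₀C) i))
    (mul_mem (zpow_mem heN j) (le_normalizer (hC.center_le hh.hm h1)))

end Cfsg.Agent.FGS4.ThreeSizes
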